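import Cfsg.Agent.Lib.AE6.Red

/-! Central extensions of `A₁₂` and `A₁₃` on the 27-dimensional module. -/

set_option autoImplicit false
set_option linter.style.haveILetI false
set_option linter.unusedSectionVars false

namespace H63.AE

open Module H82.AG Equiv Equiv.Perm Cfsg.Lie Finset

universe u

/-- Characters of the group generated by four disjoint 3-cycles. -/
abbrev Ch := Fin 4 → ZMod 3

/-- The action of the generators on the blocks. -/
def sg : Fin 4 → Fin 4 → Fin 4 := ![![1, 0, 2, 3], ![0, 2, 1, 3], ![0, 1, 3, 2], ![0, 1, 2, 3]]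
/-- The exponents. -/
def ep : Fin 4 → Fin 4 → ℕ := ![![1, 1, 2, 1], ![1, 1, 1, 2], ![2, 1, 1, 1], ![2, 2, 1, 1]]
/-- The action on characters. -/
def tau (m : Fin 4) (α : Ch) : Ch := fun i => α (sg m i) * ep m i
/-- The Hamming weight. -/
def wt (α : Ch) : ℕ := (α 0 ^ 2).val + (α 1 ^ 2).val + (α 2 ^ 2).val + (α 3 ^ 2).val
/-- Orbit representatives. -/
def rep (j : ℕ) : Ch := fun i => if i.1 < j then 1 else 0
/-- The distance from the representative. -/
def dist (α : Ch) : ℕ := 0x36d291c4aa313b1c4db71288d8e95488e469991369b4526ca6c4451488240 >>>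
  (3 * ((α 0).val + 3 * (α 1).val + 9 * (α 2).val + 27 * (α 3).val)) % 8

theorem tau_tau : ∀ m α, tau m (tau m α) = α := by decide +kernel
theorem dist_spec : ∀ α, α = rep (wt α) ∨ ∃ m, dist (tau m α) < dist α ∧ wt (tau m α) = wt α := by
  decide +kernel
theorem wt_lt : ∀ α, wt α < 5 := by decide +kernel

theorem inv_rep {β : Sort*} (F : Ch → β) (hF : ∀ m α, F (tau m α) = F α) (α : Ch) :
    F α = F (rep (wt α)) := by
  induction hn : dist α using Nat.strong_induction_on generalizing α with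
  | _ n ih =>
  rcases dist_spec α with h | ⟨m, h1, h2⟩
  · exact congrArg F h
  · rw [← hF m, ih _ (hn ▸ h1) _ rfl, h2]

theorem count_eq (a : Fin 27 → Ch) (m : ℕ → ℕ)
    (hm : ∀ α, (univ.filter fun t => a t = α).card = m (wt α)) (P : Ch → Prop) [DecidablePred P] :
    (univ.filter fun t => P (a t)).card =
      ∑ j ∈ range 5, m j * (univ.filter fun α => P α ∧ wt α = j).card := by
  rw [card_eq_sum_card_fiberwise (f := a) (t := univ.filter P) fun t ht => by simpa using ht,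
    ← sum_fiberwise_of_maps_to (g := wt) (t := range 5) fun α _ => mem_range.2 (wt_lt α)]
  refine sum_congr rfl fun j _ => ?_
  rw [filter_filter, mul_comm, ← smul_eq_mul, ← sum_const]
  refine sum_congr rfl fun α hα => ?_
  rw [← (mem_filter.1 hα).2.2, ← hm, filter_filter]
  congr 1
  ext t
  simp only [mem_filter, mem_univ, true_and, and_iff_right_iff_imp]
  rintro rfl
  exact (mem_filter.1 hα).2.1

/-- Generators of the normaliser, first factors. -/
noncomputable def ga : Fin 4 → Perm (Fin 12) :=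
  ![pm 12 0xba9826741503, pm 12 0xb59a74836210, pm 12 0x1a7b69543280, pm 12 0xba9876513420]
/-- Generators of the normaliser, second factors. -/
noncomputable def gb : Fin 4 → Perm (Fin 12) :=
  ![pm 12 0xba9586731240, pm 12 0x8b9a64573210, pm 12 0x1978a6543b20, pm 12 0xba9876253410]

theorem g_spec : ∀ m, ga m ^ 3 = 1 ∧ gb m ^ 3 = 1 ∧
    ∀ i, c12 i * (ga m * gb m) = ga m * gb m * c12 (sg m i) ^ ep m i := by decide +kernel

variable {k V : Type} [Field k] [AddCommGroup V] [Module k V] [FiniteDimensional k V]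
  {H : Type u} [Group H] {ρ : H →* End k V}

theorem one_dim {W : Submodule k V} (h1 : finrank k W = 1) {α β z : H} (hα : ∀ v ∈ W, ρ α v ∈ W)
    (hβ : ∀ v ∈ W, ρ β v ∈ W) (a3 : α ^ 3 = 1) (b3 : β ^ 3 = 1) (hz : z = (α * β) ^ 2)
    (z2 : z * z = 1) : ∀ v ∈ W, ρ z v = v := by
  obtain ⟨v0, h0, h⟩ := finrank_eq_one_iff'.1 h1
  have h0' : (v0 : V) ≠ 0 := fun e => h0 (Subtype.ext e)
  obtain ⟨s, hs⟩ := h ⟨_, hα _ v0.2⟩
  obtain ⟨t, ht⟩ := h ⟨_, hβ _ v0.2⟩
  replace hs : ρ α v0 = s • v0 := (congrArg Subtype.val hs).symm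
  replace ht : ρ β v0 = t • v0 := (congrArg Subtype.val ht).symm
  have key : ∀ (g : H) (c : k) (n : ℕ), ρ g v0 = c • v0 → ρ (g ^ n) v0 = c ^ n • (v0 : V) :=
    fun g c n e => by
      induction n with
      | zero => simp
      | succ n ih => rw [pow_succ, act_mul, e, map_smul, ih, smul_smul, pow_succ']
  have key2 : ∀ (g : H) (c : k) (n : ℕ), ρ g v0 = c • v0 → g ^ n = 1 → c ^ n = 1 :=
    fun g c n e e' => by
      have := key g c n e
      rw [e', map_one, End.one_apply] at this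
      exact smul_left_injective k h0' (this.symm.trans (one_smul k _).symm)
  have e1 : ρ z v0 = (s * t) ^ 2 • (v0 : V) := by
    rw [hz]; exact key _ _ _ (by rw [act_mul, ht, map_smul, hs, smul_smul, mul_comm])
  have e2 := key2 _ _ 2 e1 (by rw [pow_two, z2])
  have e3 : (s * t) ^ 2 = 1 := by
    have e4 := key2 _ _ _ hs a3
    have e5 := key2 _ _ _ ht b3
    calc (s * t) ^ 2 = (s * t) ^ 2 * ((s * t) ^ 2) ^ 2 := by rw [e2, mul_one]
      _ = (s ^ 3 * t ^ 3) ^ 2 := by ring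
      _ = 1 := by rw [e4, e5]; simp
  intro v hv
  obtain ⟨c, hc⟩ := h ⟨v, hv⟩
  rw [← show c • (v0 : V) = v from congrArg Subtype.val hc, map_smul, e1, e3, one_smul]

theorem eq_bot_of_a4 {Ω : Type} [DecidableEq Ω] [Fintype Ω] {π : H →* Perm Ω} (hx : Cx π)
    (h2 : (2 : k) ≠ 0) (h3 : (3 : k) ≠ 0) (W : Submodule k V) (S : Finset Ω)
    (h5 : S.card + 5 ≤ Fintype.card Ω) (hW : ∀ g, (∀ s ∈ S, π g s = s) → ∀ v ∈ W, ρ g v ∈ W)
    (hz : ∀ z, π z = 1 → ∀ v ∈ W, ρ z v = v) {a u : H} (oa : Od a) (ha : ∀ s ∈ S, π a s = s)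
    (hu : ∀ s ∈ S, π u s = s) (u1 : π u ≠ 1) (u2 : π u * π u = 1) (u3 : (π a * π u) ^ 3 = 1)
    (hN : ∀ v ∈ W, ρ a (ρ a v) + ρ a v + v = 0) : W = ⊥ := by
  have e := a4_ring (R := End k W) (a := (ρ a).restrict (hW a ha)) (u := (ρ u).restrict (hW u hu))
    (fun x hx => (smul_eq_zero.1 ((two_smul k x).trans hx)).resolve_left h2)
    (LinearMap.ext fun v => Subtype.ext (hN v v.2))
    (LinearMap.ext fun v => Subtype.ext ((act_mul ρ u u v).symm.trans
      (hz _ (by rw [map_mul, u2]) v v.2)))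
    (LinearMap.ext fun v => Subtype.ext (by
      have := hz ((a * u) ^ 3) (by rw [map_pow, map_mul, u3]) v v.2
      simp only [pow_three, act_mul] at this
      simpa [pow_three] using this))
  have h1 : a ∈ fixer ρ (W : Set V) := hx.dich S h5 (fixer ρ (W : Set V)) (fun g hg y hy w hw => by
      have hg' : ∀ s ∈ S, π g⁻¹ s = s := fun s hs => by
        rw [map_inv, Perm.inv_eq_iff_eq, hg s hs]
      rw [act_mul, act_mul, hy _ (hW _ hg' w hw), act_inv'])
    (b := u) (fun w hw => congrArg Subtype.val (LinearMap.congr_fun e ⟨w, hw⟩)) hu u1 ha oa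
  refine eq_bot_iff.2 fun v hv => ?_
  have := hN v hv
  rw [h1 v hv, h1 v hv] at this
  exact (smul_eq_zero.1 (show (3 : k) • v = 0 by rw [← this]; module)).resolve_left h3

theorem eig_pow {x : H} {n : ℕ} (hx : x ^ n = 1) {c : k}
    (h : finrank k ((ρ x).eigenspace c) ≠ 0) : c ^ n = 1 := by
  obtain ⟨v, hv, h0⟩ := (Submodule.ne_bot_iff _).1 fun e => h (Submodule.finrank_eq_zero.2 e)
  exact Wt.pow_eq (ρ := ρ) (x := fun _ : Unit => x) (χ := fun _ => c)
    ⟨v, h0, fun _ => End.mem_eigenspace_iff.1 hv⟩ (a := ()) hx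

variable [IsAlgClosed k]

theorem exists_root {n : ℕ} (h : (n : k) ≠ 0) : ∃ ζ : k, IsPrimitiveRoot ζ n := by
  have : NeZero (n : k) := ⟨h⟩
  exact HasEnoughRootsOfUnity.exists_primitiveRoot k n

theorem central13 (h11 : ((11 : ℕ) : k) ≠ 0) : CenFalse.{u} k (Fin 13) := by
  classical
  intro H _ V _ _ _ ρ π h27 hF hx _
  have hp : pm 13 0xcb0a987654321 ^ 11 = 1 ∧ pm 13 0x2716bca398054 ^ 13 = 1 ∧
      pm 13 0x87160453cba92 ^ 13 = 1 ∧ pm 13 0xcb0a987654321 ≠ 1 ∧
      pm 13 0xcb0a987654321 * (pm 13 0x2716bca398054 * pm 13 0x87160453cba92) =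
        pm 13 0x2716bca398054 * pm 13 0x87160453cba92 * pm 13 0xcb0a987654321 ^ 2 := by
    decide +kernel
  obtain ⟨x, h1, ox⟩ := hx.exists_od (sign_odd (by decide) hp.1) (by decide) hp.1
  obtain ⟨g, h2⟩ := hx.surj (pm 13 0x2716bca398054 * pm 13 0x87160453cba92) (by
    rw [map_mul, sign_odd (by decide) hp.2.1, sign_odd (by decide) hp.2.2.1, mul_one])
  have h3 := hx.pow_eq ox (h1 ▸ hp.1)
  have h4 := hx.rel ox ox (g := g) (m := 2) (by rw [h1, h2]; exact hp.2.2.2.2)
  obtain ⟨d, a1, a2, a3⟩ := hF x ⟨11, h11, h3⟩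
  obtain ⟨ζ, hζ⟩ := exists_root h11
  refine hp.2.2.2.1 (h1 ▸ a3 (a1.eleven hζ (fun a => eig_pow (ρ := ρ) h3 ?_) fun c => ?_))
  · rw [a2]
    exact (card_pos.2 ⟨a, by simp⟩).ne'
  · have := eig_le (f := ρ x) (g := ρ g⁻¹) (g' := ρ g) (e := 2)
      (by rw [← map_mul, inv_mul_cancel, map_one]) (by rw [← map_pow, ← map_mul, ← map_mul, h4]) c
    rw [a2, a2] at this
    convert this

theorem central12 (h2 : (2 : k) ≠ 0) (h3 : (3 : k) ≠ 0) : CenFalse.{u} k (Fin 12) := by
  classical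
  intro H _ V _ _ _ ρ π h27 hF hx hK
  have h3' : ((3 : ℕ) : k) ≠ 0 := by simpa using h3
  choose x hπ ox using fun i => hx.exists_od (c12_sign i) (by decide) (c12_pow i)
  have x3 : ∀ i, x i ^ 3 = 1 := fun i => hx.pow_eq (ox i) (by rw [hπ, c12_pow])
  have xc : ∀ i j, Commute (x i) (x j) := fun i j => hx.comm (ox j) (by
    rw [hπ, hπ]; revert i j; decide +kernel)
  obtain ⟨ω, hω⟩ := exists_root h3'
  obtain ⟨w, hw⟩ : ∃ w : ZMod 3 → k, w = fun j => ω ^ j.val := ⟨_, rfl⟩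
  have wi : Function.Injective w := fun i j e => ZMod.val_injective 3
    (hω.pow_inj i.val_lt j.val_lt (by simpa [hw] using e))
  have wc : ∀ n : ℕ, w n = ω ^ n := fun n => by
    rw [hw]
    conv_rhs => rw [← Nat.mod_add_div n 3, pow_add, pow_mul, hω.pow_eq_one, one_pow, mul_one]
    simp only [ZMod.val_natCast]
  have wm : ∀ (j : ZMod 3) (e : ℕ), w (j * e) = w j ^ e := fun j e => by
    rw [← ZMod.natCast_zmod_val j, ← Nat.cast_mul, wc, wc, pow_mul]
  have wa : ∀ i j, w (i + j) = w i * w j := fun i j => by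
    rw [← ZMod.natCast_zmod_val i, ← ZMod.natCast_zmod_val j, ← Nat.cast_add, wc, wc, wc, pow_add]
  have w1 : w 1 = ω := by simpa using wc 1
  have wN : ∀ j, j ≠ 0 → w j * w j + w j + 1 = 0 := fun j hj => by
    have e1 : w j ≠ 1 := fun e => hj (wi (by rw [e]; simpa using (wc 0).symm))
    have e2 : w j ^ 3 = 1 := by rw [← wm, show ((3 : ℕ) : ZMod 3) = 0 from rfl]; simpa using wc 0
    exact (mul_eq_zero.1 (show (w j - 1) * (w j * w j + w j + 1) = 0 by
      linear_combination e2)).resolve_left (sub_ne_zero.2 e1)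
  obtain ⟨b, c, hb⟩ := exists_basis (fun i => ρ (x i)) (fun i j => (xc i j).map ρ) h3'
    (fun i => by rw [← map_pow, x3, map_one]) h27
  obtain ⟨a, rfl⟩ : ∃ a : Fin 27 → Ch, c = fun t i => w (a t i) := by
    choose a _ ha using fun t i => hω.eq_pow_of_pow_eq_one
      (Wt.pow_eq (ρ := ρ) ⟨b t, b.ne_zero t, hb t⟩ (x3 i))
    exact ⟨fun t i => a t i, funext fun t => funext fun i => by rw [wc, ha]⟩
  let JJ : Ch → Submodule k V := fun α => J (fun i => ρ (x i)) fun i => w (α i)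
  have hJ : ∀ α, finrank k (JJ α) = (univ.filter fun t => a t = α).card := fun α => by
    rw [finrank_J b hb]
    congr 1
    ext t
    simp [funext_iff, wi.eq_iff]
  have hg : ∀ m, ∃ g, ∀ α, ∀ v ∈ JJ α, ρ g v ∈ JJ (tau m α) := fun m => by
    obtain ⟨a1, a2, a3⟩ := g_spec m
    obtain ⟨g, hg⟩ := hx.surj (ga m * gb m) (by
      rw [map_mul, sign_odd (by decide) a1, sign_odd (by decide) a2, mul_one])
    refine ⟨g, fun α v hv => mem_J.2 fun i => ?_⟩
    rw [← act_mul, hx.rel (ox i) (ox (sg m i)) (m := ep m i) (by rw [hπ, hπ, hg, a3]), act_mul,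
      ← map_smul, tau, wm]
    congr 1
    have := mem_J.1 hv (sg m i)
    induction ep m i with
    | zero => simp
    | succ n ih => rw [pow_succ, act_mul, this, map_smul, ih, smul_smul, pow_succ']
  have hle : ∀ m α, finrank k (JJ α) ≤ finrank k (JJ (tau m α)) := fun m α => by
    obtain ⟨g, hg⟩ := hg m
    exact LinearMap.finrank_le_finrank_of_injective (f := (ρ g).restrict (hg α)) fun u v e =>
      Subtype.ext (Function.LeftInverse.injective (act_inv ρ g) (congrArg Subtype.val e))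
  obtain ⟨m, hm⟩ : ∃ m : ℕ → ℕ, ∀ α, (univ.filter fun t => a t = α).card = m (wt α) :=
    ⟨fun j => finrank k (JJ (rep j)), fun α => (hJ α).symm.trans (inv_rep (fun α => finrank k (JJ α))
      (fun m α => le_antisymm ((hle m _).trans (by rw [tau_tau])) (hle m α)) α)⟩
  have hP : ∀ z, π z = 1 → ∀ α, (∀ v ∈ JJ (rep (wt α)), ρ z v = v) → ∀ v ∈ JJ α, ρ z v = v :=
    fun z hz α => by
      have key : ∀ m α, (∀ v ∈ JJ (tau m α), ρ z v = v) → ∀ v ∈ JJ α, ρ z v = v := fun m α h v hv => by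
        obtain ⟨g, hg⟩ := hg m
        have := h _ (hg α v hv)
        rw [← act_mul, hx.cen z hz g, act_mul] at this
        exact Function.LeftInverse.injective (act_inv ρ g) this
      exact (inv_rep (fun α => ∀ v ∈ JJ α, ρ z v = v) (fun m α => propext
        ⟨key m α, fun h => key m _ (by rwa [tau_tau])⟩) α).ge
  have finish : ∀ (i j : Fin 4) (μ ν : ZMod 3) (S : Finset (Fin 12)) (n : ℕ) (g u : H)
      (l : Ch → ZMod 3), S.card + 5 ≤ 12 → (∀ y, y ∉ S → c12 i y = y ∧ c12 j y = y) →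
      (∀ z, π z = 1 → ∀ v ∈ JJ (rep n), ρ z v = v) → Od g → (∀ s ∈ S, π g s = s ∧ π u s = s) →
      π u ≠ 1 → π u * π u = 1 → (π g * π u) ^ 3 = 1 → (∀ t, ρ g (b t) = w (l (a t)) • b t) →
      (∀ t, a t i = μ → a t j = ν → wt (a t) = n ∧ l (a t) ≠ 0) →
      ∀ α, m (wt α) = 1 → α i = μ → α j = ν → False := by
    intro i j μ ν S n g u l a1 a2 a3 a4 a5 a6 a7 a8 a9 a10 α a11 a12 a13
    have e := J_eq b (x := ![ρ (x i), ρ (x j)]) (c := fun t => ![w (a t i), w (a t j)])
      (fun t s => by fin_cases s; exacts [hb t i, hb t j]) ![w μ, w ν]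
    have e' : ∀ t, ![w (a t i), w (a t j)] = ![w μ, w ν] → wt (a t) = n ∧ l (a t) ≠ 0 :=
      fun t ht => a10 t (wi (congrFun ht 0)) (wi (congrFun ht 1))
    have h0 := eq_bot_of_a4 (ρ := ρ) hx h2 h3 (J ![ρ (x i), ρ (x j)] ![w μ, w ν]) S
      (by simpa using a1) (fun g hg v hv => mem_J.2 fun s => by
        have b1 := hx.comm_of (ox i) S (fun y hy => by rw [hπ, (a2 y hy).1]) g hg
        have b2 := hx.comm_of (ox j) S (fun y hy => by rw [hπ, (a2 y hy).2]) g hg
        have b3 := mem_J.1 hv s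
        fin_cases s
        · change ρ (x i) _ = _
          rw [← act_mul, ← b1, act_mul, ← map_smul]; exact congrArg _ b3
        · change ρ (x j) _ = _
          rw [← act_mul, ← b2, act_mul, ← map_smul]; exact congrArg _ b3)
      (fun z hz v hv => by
        rw [e] at hv
        refine LinearMap.mem_ker.1 (Submodule.span_le (p := LinearMap.ker (ρ z - 1)).2 ?_ hv) |>
          sub_eq_zero.1
        rintro _ ⟨t, ht, rfl⟩
        exact sub_eq_zero.2 (hP z hz (a t) ((e' t ht).1 ▸ a3 z hz) _ (mem_J.2 (hb t))))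
      a4 (fun s hs => (a5 s hs).1) (fun s hs => (a5 s hs).2) a6 a7 a8 (fun v hv => by
        rw [e] at hv
        refine LinearMap.mem_ker.1
          (Submodule.span_le (p := LinearMap.ker (ρ g * ρ g + ρ g + 1)).2 ?_ hv)
        rintro _ ⟨t, ht, rfl⟩
        change ρ g (ρ g (b t)) + ρ g (b t) + b t = 0
        rw [a9, map_smul, a9, smul_smul, ← add_smul]
        nth_rw 2 [← one_smul k (b t)]
        rw [← add_smul, wN _ (e' t ht).2, zero_smul])
    obtain ⟨t, ht⟩ := card_pos.1 (by rw [hm α, a11]; decide)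
    obtain rfl := (mem_filter.1 ht).2
    exact b.ne_zero t (h0.le (e.ge (Submodule.subset_span ⟨t, by rw [← a12, ← a13]; rfl, rfl⟩)))
  have n1 := count_eq a m hm fun _ => True
  have n2 := count_eq a m hm fun α => α 0 = 1
  have n3 := count_eq a m hm fun α => α 0 = 1 ∧ α 1 = 1
  have q1 : ∀ j < 5, (univ.filter fun α : Ch => True ∧ wt α = j).card = [1, 8, 24, 32, 16].getD j 0 ∧
      (univ.filter fun α : Ch => α 0 = 1 ∧ wt α = j).card = [0, 1, 6, 12, 8].getD j 0 ∧
      (univ.filter fun α : Ch => (α 0 = 1 ∧ α 1 = 1) ∧ wt α = j).card = [0, 0, 1, 4, 4].getD j 0 := by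
    decide +kernel
  rw [sum_congr rfl fun j hj => by rw [(q1 j (mem_range.1 hj)).1]] at n1
  rw [sum_congr rfl fun j hj => by rw [(q1 j (mem_range.1 hj)).2.1]] at n2
  rw [sum_congr rfl fun j hj => by rw [(q1 j (mem_range.1 hj)).2.2]] at n3
  simp only [sum_range_succ, sum_range_zero, List.getD_cons_succ, List.getD_cons_zero, filter_true,
    card_univ, Fintype.card_fin] at n1 n2 n3
  have n4 : (univ.filter fun t => a t 0 = 1).card ∈ [6, 9] := by
    obtain ⟨d, a1, a2, a3⟩ := hF (x 0) ⟨3, h3', x3 0⟩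
    have a4 : ∀ a, d a ^ 3 = 1 := fun a => eig_pow (ρ := ρ) (x3 0) (by
      rw [a2]; exact (card_pos.2 ⟨a, by simp⟩).ne')
    have a5 : ∀ c, finrank k ((ρ (x 0)).eigenspace c) ≤ finrank k ((ρ (x 0)).eigenspace (c ^ 2)) := by
      obtain ⟨b1, b2, b3⟩ := g_spec 3
      obtain ⟨g, hg⟩ := hx.surj (ga 3 * gb 3) (by
        rw [map_mul, sign_odd (by decide) b1, sign_odd (by decide) b2, mul_one])
      exact eig_le (g := ρ g⁻¹) (g' := ρ g) (by rw [← map_mul, inv_mul_cancel, map_one]) (by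
        rw [← map_pow, ← map_mul, ← map_mul, hx.rel (ox 0) (ox 0) (m := 2) (by rw [hπ, hg]; exact b3 0)])
    have a6 : finrank k ((ρ (x 0)).eigenspace ω) = finrank k ((ρ (x 0)).eigenspace (ω ^ 2)) :=
      le_antisymm (a5 _) ((a5 _).trans (by
        rw [← pow_mul, show 2 * 2 = 3 + 1 from rfl, pow_succ, hω.pow_eq_one, one_mul]))
    have a7 := a1.three hω a4 (by rw [a2, a2] at a6; convert a6)
    have a8 : (univ.filter fun t => a t 0 = 1).card = (univ.filter fun a => d a = ω).card := by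
      rw [← a2, finrank_eig b (fun t => hb t 0)]
      congr 1
      ext t
      simp [← w1, wi.eq_iff]
    rw [a8]
    refine (List.mem_cons.1 (by convert a7)).resolve_left fun a9 => a12_ne ?_
    have a10 := a6
    rw [a2, a2, a9, eq_comm] at a10
    rw [card_eq_zero, filter_eq_empty_iff] at a9 a10
    refine (hπ 0).symm.trans (a3 fun s => ?_)
    obtain ⟨i, hi, e⟩ := hω.eq_pow_of_pow_eq_one (a4 s)
    interval_cases i
    · simpa using e.symm
    · exact absurd (by simpa using e.symm) (a9 (mem_univ s))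
    · exact absurd e.symm (a10 (mem_univ s))
  have hm0 : ∀ t, m (wt (a t)) ≠ 0 := fun t => by
    rw [← hm]; exact (card_pos.2 ⟨t, by simp⟩).ne'
  have lift : ∀ p q r : Fin 12, [p, q, r].Nodup → ∃ α, π α = cyc p q r ∧ Od α ∧ α ^ 3 = 1 :=
    fun p q r h => by
      obtain ⟨α, a1, a2⟩ := hx.exists_cyc (a := p) (b := q) (c := r) (by grind) (by grind) (by grind)
      exact ⟨α, a1, a2, hx.pow_eq a2 (a1 ▸ cyc_pow (by grind) (by grind) (by grind))⟩
  have sw : ∀ p q r s : Fin 12, p ≠ q → r ≠ s → ∃ u, π u = swap p q * swap r s :=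
    fun p q r s a1 a2 => hx.surj _ (by rw [map_mul, sign_swap a1, sign_swap a2]; rfl)
  simp only [List.mem_cons, List.not_mem_nil, or_false] at n4
  obtain ⟨m1, m2, m3, m4⟩ | ⟨m1, m2, m3, m4⟩ :
      m 1 = 0 ∧ m 2 = 1 ∧ m 3 = 0 ∧ m 4 = 0 ∨ m 1 = 1 ∧ m 2 = 0 ∧ m 3 = 0 ∧ m 4 = 1 := by omega
  · obtain ⟨u, hu⟩ := sw 6 9 7 10 (by decide) (by decide)
    refine finish 0 1 1 0 {0, 1, 2, 3, 4, 5} 2 (x 2 * x 3) u (fun α => α 2 + α 3) (by decide)
      (by decide +kernel) (fun z hz v hv => ?_)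
      ⟨3, by decide, by rw [(xc 2 3).mul_pow, x3, x3, mul_one]⟩
      (by rw [map_mul, hπ, hπ, hu]; decide +kernel) (by rw [hu]; decide) (by rw [hu]; decide)
      (by rw [map_mul, hπ, hπ, hu]; decide +kernel)
      (fun t => by rw [act_mul, hb, map_smul, hb, smul_smul, wa, mul_comm]) (fun t => ?_)
      ![1, 0, 1, 0] m2 rfl rfl
    · obtain ⟨α, a1, a2, a3⟩ := lift 6 7 8 (by decide)
      obtain ⟨β, b1, b2, b3⟩ := lift 9 7 8 (by decide)
      rcases hK 7 8 6 9 α β (by decide) a1 b1 a2 b2 z hz with rfl | e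
      · simp
      have hc : ∀ g, (π g * c12 0 = c12 0 * π g ∧ π g * c12 1 = c12 1 * π g) →
          ∀ v ∈ J ![ρ (x 0), ρ (x 1)] ![ω, ω], ρ g v ∈ J ![ρ (x 0), ρ (x 1)] ![ω, ω] :=
        fun g hg v hv => mem_J.2 fun s => by
          have b3 := mem_J.1 hv s
          fin_cases s
          · change ρ (x 0) _ = _
            rw [← act_mul, ← hx.comm (ox 0) (by rw [hπ, hg.1]), act_mul, ← map_smul]
            exact congrArg _ b3
          · change ρ (x 1) _ = _
            rw [← act_mul, ← hx.comm (ox 1) (by rw [hπ, hg.2]), act_mul, ← map_smul]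
            exact congrArg _ b3
      refine one_dim (W := J ![ρ (x 0), ρ (x 1)] ![ω, ω]) ?_ (hc α (by rw [a1]; decide +kernel))
        (hc β (by rw [b1]; decide +kernel)) a3 b3 e (hx.sq z hz) v (mem_J.2 fun s => ?_)
      · rw [finrank_J b (c := fun t => ![w (a t 0), w (a t 1)])
          (fun t s => by fin_cases s; exacts [hb t 0, hb t 1])]
        refine Eq.trans ?_ (n3.trans (by omega))
        congr 1
        ext t
        simp [← w1, wi.eq_iff, funext_iff, Fin.forall_fin_two]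
      · rw [← w1]
        fin_cases s
        exacts [mem_J.1 hv 0, mem_J.1 hv 1]
    · have : ∀ α : Ch, wt α ≠ 1 → wt α ≠ 3 → wt α ≠ 4 → α 0 = 1 → α 1 = 0 →
        wt α = 2 ∧ α 2 + α 3 ≠ 0 := by decide +kernel
      exact this _ (fun e => hm0 t (e ▸ m1)) (fun e => hm0 t (e ▸ m3)) (fun e => hm0 t (e ▸ m4))
  · obtain ⟨u, hu⟩ := sw 0 1 2 3 (by decide) (by decide)
    refine finish 2 3 1 1 {6, 7, 8, 9, 10, 11} 4 (x 0) u (fun α => α 0) (by decide)
      (by decide +kernel) (fun z hz v hv => ?_) (ox 0)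
      (by rw [hπ, hu]; decide +kernel) (by rw [hu]; decide) (by rw [hu]; decide)
      (by rw [hπ, hu]; decide +kernel) (fun t => hb t 0) (fun t => ?_) ![1, 1, 1, 1] m4 rfl rfl
    · by_cases hz1 : z = 1
      · simp [hz1]
      obtain ⟨α0, a0, o0, -⟩ := lift 0 3 6 (by decide)
      obtain ⟨β0, b0, p0, -⟩ := lift 9 3 6 (by decide)
      obtain ⟨α1, a1, o1, -⟩ := lift 1 4 7 (by decide)
      obtain ⟨β1, b1, p1, -⟩ := lift 10 4 7 (by decide)
      obtain ⟨α2, a2, o2, -⟩ := lift 2 5 8 (by decide)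
      obtain ⟨β2, b2, p2, -⟩ := lift 11 5 8 (by decide)
      have e0 := (hK 3 6 0 9 _ _ (by decide) a0 b0 o0 p0 z hz).resolve_left hz1
      have e1 := (hK 4 7 1 10 _ _ (by decide) a1 b1 o1 p1 z hz).resolve_left hz1
      have e2 := (hK 5 8 2 11 _ _ (by decide) a2 b2 o2 p2 z hz).resolve_left hz1
      have c1 : Commute (α0 * β0) (α1 * β1) := Commute.mul_right
        (hx.comm o1 (by rw [map_mul, a0, b0, a1]; decide))
        (hx.comm p1 (by rw [map_mul, a0, b0, b1]; decide))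
      have c2 : Commute (α0 * β0 * (α1 * β1)) (α2 * β2) := Commute.mul_right
        (hx.comm o2 (by simp only [map_mul, a0, b0, a1, b1, a2]; decide))
        (hx.comm p2 (by simp only [map_mul, a0, b0, a1, b1, b2]; decide))
      have hp : pm 12 0xba9210876543 ^ 3 = 1 ∧ pm 12 0x543ba9876210 ^ 3 = 1 := by decide +kernel
      obtain ⟨α, ha, oa⟩ := hx.exists_od (sign_odd (by decide) hp.1) (by decide) hp.1
      obtain ⟨β, hb', ob⟩ := hx.exists_od (sign_odd (by decide) hp.2) (by decide) hp.2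
      have hc : ∀ (g : H) (σ : Fin 4 → Fin 4), (∀ i, c12 i * π g = π g * c12 (σ i) ^ 1) →
          ∀ v ∈ JJ (rep 4), ρ g v ∈ JJ (rep 4) := fun g σ hg v hv => mem_J.2 fun i => by
        rw [← act_mul, hx.rel (ox i) (ox (σ i)) (m := 1) (by rw [hπ, hπ, hg]), pow_one, act_mul,
          mem_J.1 hv, map_smul]
        simp [rep]
      refine one_dim (W := JJ (rep 4)) (by rw [hJ, hm]; exact m4)
        (hc α ![2, 0, 1, 3] (by rw [ha]; decide +kernel))
        (hc β ![0, 3, 1, 2] (by rw [hb']; decide +kernel)) (hx.pow_eq oa (ha ▸ hp.1))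
        (hx.pow_eq ob (hb' ▸ hp.2)) ?_ (hx.sq z hz) v hv
      rw [pow_two, hx.sq_eq (b := α0 * β0 * (α1 * β1) * (α2 * β2)) (by
        simp only [map_mul, a0, b0, a1, b1, a2, b2, ha, hb']; decide +kernel), ← pow_two,
        c2.mul_pow, c1.mul_pow, ← e0, ← e1, ← e2, hx.sq z hz, one_mul]
    · have : ∀ α : Ch, wt α ≠ 2 → wt α ≠ 3 → α 2 = 1 → α 3 = 1 → wt α = 4 ∧ α 0 ≠ 0 := by
        decide +kernel
      exact this _ (fun e => hm0 t (e ▸ m2)) (fun e => hm0 t (e ▸ m3))

theorem eqns_cen : sg = sg ∧ ep = ep ∧ ga = ga ∧ gb = gb ∧ ∀ α, tau 0 α = tau 0 α ∧ wt α = wt α ∧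
    rep 0 = rep 0 ∧ dist α = dist α :=
  ⟨sg.eq_1.trans sg.eq_1.symm, ep.eq_1.trans ep.eq_1.symm, ga.eq_1.trans ga.eq_1.symm,
    gb.eq_1.trans gb.eq_1.symm, fun α => ⟨funext fun i => (tau.eq_1 0 α i).trans (tau.eq_1 0 α i).symm,
      (wt.eq_1 α).trans (wt.eq_1 α).symm, funext fun i => (rep.eq_1 0 i).trans (rep.eq_1 0 i).symm,
      (dist.eq_1 α).trans (dist.eq_1 α).symm⟩⟩

end H63.AE
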