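import Mathlib
import Cfsg.Agent.Lib.AltGL.Main
import Cfsg.Agent.Lib.ModRep.Sg

/-! Joint eigenspaces, eigenbases, and removal of a normal `p`-subgroup from a module. -/

set_option autoImplicit false
set_option linter.style.haveILetI false
set_option linter.unusedSectionVars false

namespace H63.AE

open Module H82.AG

variable {k V : Type*} [Field k] [AddCommGroup V] [Module k V]

/-- The joint eigenspace. -/
def J {A : Type*} (x : A → End k V) (χ : A → k) : Submodule k V := ⨅ a, (x a).eigenspace (χ a)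

theorem eqns_J {k V : Type} [Field k] [AddCommGroup V] [Module k V] {A : Type} (x : A → End k V)
    (χ : A → k) : J x χ = ⨅ a, (x a).eigenspace (χ a) := J.eq_1 x χ

theorem mem_J {A : Type*} {x : A → End k V} {χ : A → k} {v : V} :
    v ∈ J x χ ↔ ∀ a, x a v = χ a • v := by
  simp only [J, Submodule.mem_iInf, End.mem_eigenspace_iff]

theorem exists_basis [IsAlgClosed k] [FiniteDimensional k V] {A : Type*} (x : A → End k V)
    (hc : ∀ a b, Commute (x a) (x b)) {N : ℕ} (hN : (N : k) ≠ 0) (hx : ∀ a, x a ^ N = 1) {n : ℕ}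
    (hn : finrank k V = n) :
    ∃ (b : Basis (Fin n) k V) (c : Fin n → A → k), ∀ i a, x a (b i) = c i a • b i := by
  subst hn
  let S : Set V := {v | ∃ χ : A → k, ∀ a, x a v = χ a • v}
  have h1 : Submodule.span k S = ⊤ := by
    obtain ⟨W, hW⟩ := (Submodule.span k S).exists_isCompl
    have h2 := eq_zero_of_wt x hc hN hx (W.subtype ∘ₗ W.projectionOnto _ hW.symm) fun χ v hv => by
      rw [LinearMap.comp_apply, Submodule.projectionOnto_apply_of_mem_right hW.symm
        (Submodule.subset_span ⟨χ, hv⟩), map_zero]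
    have h3 : W = ⊥ := eq_bot_iff.2 fun w hw => by
      have := LinearMap.congr_fun h2 w
      rwa [LinearMap.comp_apply, show w = ((⟨w, hw⟩ : W) : V) from rfl,
        Submodule.projectionOnto_apply_left] at this
    simpa [h3] using hW.sup_eq_top
  obtain ⟨s, hs, h2, h3⟩ := exists_linearIndependent k S
  let b0 : Basis s k V := Basis.mk h3 (by rw [Subtype.range_coe, h2, h1])
  let e := b0.indexEquiv (finBasis k V)
  choose c hc using fun i : Fin (finrank k V) => hs (e.symm i).2
  refine ⟨b0.reindex e, c, fun i a => ?_⟩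
  rw [Basis.reindex_apply, Basis.mk_apply]
  exact hc i a

section Basis

variable {ι A : Type*} [Fintype ι] (b : Basis ι k V) {x : A → End k V} {c : ι → A → k}
  (h : ∀ i a, x a (b i) = c i a • b i)

theorem finrank_span (s : Finset ι) : finrank k (Submodule.span k (b '' s)) = s.card := by
  have := finrank_span_eq_card (b.linearIndependent.comp (Subtype.val : s → ι) Subtype.val_injective)
  have e : Set.range (b ∘ (Subtype.val : s → ι)) = b '' s := by ext; simp
  rwa [Fintype.card_coe, e] at this

include h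

theorem J_eq (χ : A → k) : J x χ = Submodule.span k (b '' {i | c i = χ}) := by
  refine le_antisymm (fun v hv => ?_) (Submodule.span_le.2 ?_)
  · rw [b.mem_span_image]
    intro i hi
    funext a
    have h1 : b.coord i ∘ₗ x a = c i a • b.coord i := b.ext fun j => by
      classical
      by_cases e : j = i
      · subst e; simp [h]
      · simp [h, e]
    have h2 := LinearMap.congr_fun h1 v
    rw [LinearMap.comp_apply, mem_J.1 hv a, map_smul, LinearMap.smul_apply, smul_eq_mul,
      smul_eq_mul] at h2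
    exact (mul_right_cancel₀ (Finsupp.mem_support_iff.1 hi) h2).symm
  · rintro _ ⟨i, rfl, rfl⟩
    exact mem_J.2 (h i)

open Classical in
theorem finrank_J (χ : A → k) :
    finrank k (J x χ) = (Finset.univ.filter fun i => c i = χ).card := by
  rw [J_eq b h, ← finrank_span b, Finset.coe_filter_univ]

open Classical in
theorem card_le_of_map (T : End k V) (hT : Function.Injective T) (P P' : (A → k) → Prop)
    (hP : ∀ i, P (c i) → ∃ χ', P' χ' ∧ T (b i) ∈ J x χ') :
    (Finset.univ.filter fun i => P (c i)).card ≤ (Finset.univ.filter fun i => P' (c i)).card := by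
  have := Module.Finite.of_basis b
  rw [← finrank_span b, ← finrank_span b, (Submodule.equivMapOfInjective T hT _).finrank_eq]
  refine Submodule.finrank_mono ?_
  rw [Submodule.map_span, Submodule.span_le]
  rintro _ ⟨_, ⟨i, hi, rfl⟩, rfl⟩
  obtain ⟨χ', h1, h2⟩ := hP i (by simpa using hi)
  rw [J_eq b h] at h2
  refine Submodule.span_mono (Set.image_mono fun j hj => ?_) h2
  simpa [show c j = χ' from hj] using h1

end Basis

open Classical in
theorem finrank_eig {ι : Type*} [Fintype ι] (b : Basis ι k V) {f : End k V} {d : ι → k}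
    (h : ∀ i, f (b i) = d i • b i) (μ : k) :
    finrank k (f.eigenspace μ) = (Finset.univ.filter fun i => d i = μ).card := by
  have := finrank_J b (x := fun _ : Unit => f) (c := fun i _ => d i) (fun i _ => h i) fun _ => μ
  rw [J, iInf_const] at this
  rw [this]
  congr 1
  ext i
  simp [funext_iff]

theorem eig_add [FiniteDimensional k V] (f : End k V) (U : Submodule k V) (hU : ∀ v ∈ U, f v ∈ U)
    {N : ℕ} (hN : (N : k) ≠ 0) (hf : f ^ N = 1) (c : k) :
    finrank k (f.eigenspace c) = finrank k (End.eigenspace (f.restrict hU) c) +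
      finrank k (End.eigenspace (U.mapQ U f hU) c) := by
  let φ : f.eigenspace c →ₗ[k] V ⧸ U := U.mkQ ∘ₗ (f.eigenspace c).subtype
  have h1 : LinearMap.range φ = End.eigenspace (U.mapQ U f hU) c := by
    refine le_antisymm ?_ fun w hw => ?_
    · rintro _ ⟨v, rfl⟩
      rw [End.mem_eigenspace_iff]
      change U.mkQ (f v) = c • U.mkQ v
      rw [End.mem_eigenspace_iff.1 v.2, map_smul]
    obtain ⟨v, rfl⟩ := U.mkQ_surjective w
    have h2 : U.mkQ (f v) = c • U.mkQ v := End.mem_eigenspace_iff.1 hw
    have h3 : ∀ (i : ℕ), U.mkQ ((f ^ i) v) = c ^ i • U.mkQ v := fun i => by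
      induction i with
      | zero => simp
      | succ i ih =>
        have : U.mkQ ((f ^ (i + 1)) v) = U.mapQ U f hU (U.mkQ ((f ^ i) v)) := by
          rw [pow_succ', End.mul_apply]; rfl
        rw [this, ih, map_smul, pow_succ, mul_smul]
        exact congrArg _ h2
    by_cases h0 : U.mkQ v = 0
    · rw [h0]; exact zero_mem _
    have h4 : c ^ N = 1 := by
      have := h3 N
      rw [hf, End.one_apply] at this
      exact smul_left_injective k h0 (this.symm.trans (one_smul k _).symm)
    have hN0 : N ≠ 0 := by rintro rfl; simp at hN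
    have hc : c ≠ 0 := by rintro rfl; simp [hN0] at h4
    refine ⟨⟨(N : k)⁻¹ • ∑ i ∈ Finset.range N, (c ^ i)⁻¹ • (f ^ i) v, ?_⟩, ?_⟩
    · refine Submodule.smul_mem _ _ (End.mem_eigenspace_iff.2 ?_)
      have h5 := Finset.sum_range_succ (fun i => (c ^ i)⁻¹ • (f ^ i) v) N
      rw [Finset.sum_range_succ', hf, h4, pow_zero, pow_zero, add_left_inj] at h5
      conv_rhs => rw [← h5, Finset.smul_sum]
      rw [map_sum]
      refine Finset.sum_congr rfl fun i _ => ?_
      rw [map_smul, smul_smul, pow_succ' f, End.mul_apply]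
      congr 1
      rw [pow_succ', mul_inv, mul_inv_cancel_left₀ hc]
    · change U.mkQ _ = _
      rw [Submodule.coe_subtype, map_smul, map_sum]
      rw [Finset.sum_congr rfl (g := fun _ => U.mkQ v) fun i _ => by
        rw [map_smul, h3, smul_smul, inv_mul_cancel₀ (pow_ne_zero _ hc), one_smul]]
      rw [Finset.sum_const, Finset.card_range, ← Nat.cast_smul_eq_nsmul k, smul_smul,
        inv_mul_cancel₀ hN, one_smul]
  have h2 : (LinearMap.ker φ).map (f.eigenspace c).subtype =
      (End.eigenspace (f.restrict hU) c).map U.subtype := by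
    ext v
    constructor
    · rintro ⟨w, hw, rfl⟩
      exact ⟨⟨w, (Submodule.Quotient.mk_eq_zero U).1 hw⟩, End.mem_eigenspace_iff.2
        (Subtype.ext (End.mem_eigenspace_iff.1 w.2)), rfl⟩
    · rintro ⟨w, hw, rfl⟩
      exact ⟨⟨w, End.mem_eigenspace_iff.2 (congrArg Subtype.val (End.mem_eigenspace_iff.1 hw))⟩,
        (Submodule.Quotient.mk_eq_zero U).2 w.2, rfl⟩
  rw [← φ.finrank_range_add_finrank_ker, h1, add_comm, ← Submodule.finrank_map_subtype_eq, h2,
    Submodule.finrank_map_subtype_eq]

theorem eig_prod {W : Type*} [AddCommGroup W] [Module k W] [FiniteDimensional k V]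
    [FiniteDimensional k W] (f : End k V) (g : End k W) (c : k) :
    finrank k (End.eigenspace (f.prodMap g) c) =
      finrank k (f.eigenspace c) + finrank k (g.eigenspace c) := by
  rw [← finrank_prod]
  refine LinearEquiv.finrank_eq (LinearEquiv.ofBijective
    (((f.eigenspace c).subtype.prodMap (g.eigenspace c).subtype).codRestrict _ fun v => ?_)
    ⟨fun a b e => ?_, fun v => ?_⟩).symm
  · exact End.mem_eigenspace_iff.2
      (Prod.ext (End.mem_eigenspace_iff.1 v.1.2) (End.mem_eigenspace_iff.1 v.2.2))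
  · have := congrArg Subtype.val e
    exact Prod.ext (Subtype.ext (congrArg Prod.fst this)) (Subtype.ext (congrArg Prod.snd this))
  · have := End.mem_eigenspace_iff.1 v.2
    exact ⟨(⟨v.1.1, End.mem_eigenspace_iff.2 (congrArg Prod.fst this)⟩,
      ⟨v.1.2, End.mem_eigenspace_iff.2 (congrArg Prod.snd this)⟩), rfl⟩

/-- The order of `x` is prime to the characteristic. -/
def Reg (k : Type*) [Field k] {H : Type*} [Monoid H] (x : H) : Prop :=
  ∃ N : ℕ, (N : k) ≠ 0 ∧ x ^ N = 1

theorem eqns_Reg {k H : Type} [Field k] [Monoid H] (x : H) :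
    Reg k x = ∃ N : ℕ, (N : k) ≠ 0 ∧ x ^ N = 1 := Reg.eq_1 k x

theorem Reg.map {H H' : Type*} [Monoid H] [Monoid H'] {x : H} (h : Reg k x) (f : H →* H') :
    Reg k (f x) := let ⟨N, h1, h2⟩ := h; ⟨N, h1, by rw [← map_pow, h2, map_one]⟩

theorem Reg.lift (p : ℕ) [Fact p.Prime] [CharP k p] {H H' : Type*} [Group H] [Finite H] [Group H']
    (f : H →* H') (y : H) (h : Reg k (f y)) : ∃ x, Reg k x ∧ f x = f y := by
  have hp : p.Prime := Fact.out
  obtain ⟨N, h1, h2⟩ := h
  obtain ⟨a, m, hm, e⟩ := Nat.exists_eq_pow_mul_and_not_dvd (orderOf_pos y).ne' p hp.one_lt.ne'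
  have h3 : (p ^ a).Coprime (orderOf (f y)) :=
    Nat.Coprime.pow_left a ((hp.coprime_iff_not_dvd.2 fun h => h1
      ((CharP.cast_eq_zero_iff k p N).2 h)).coprime_dvd_right (orderOf_dvd_of_pow_eq_one h2))
  obtain ⟨u, hu⟩ := exists_pow_eq_self_of_coprime h3
  refine ⟨(y ^ p ^ a) ^ u, ⟨m, fun h => hm ((CharP.cast_eq_zero_iff k p m).1 h), ?_⟩,
    by rw [map_pow, map_pow, hu]⟩
  rw [← pow_mul, mul_comm u, pow_mul, ← pow_mul y, ← e, pow_orderOf_eq_one, one_pow]

/-- A module can be replaced by one on which a normal `p`-subgroup acts trivially. -/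
theorem exists_ss (p : ℕ) [Fact p.Prime] {k : Type} [Field k] [CharP k p] {H : Type*} [Group H]
    (Q : Subgroup H) [hQ : Q.Normal] [Finite Q] (hp : IsPGroup p Q) (n : ℕ) :
    ∀ (V : Type) [AddCommGroup V] [Module k V] [FiniteDimensional k V] (ρ : H →* End k V),
      finrank k V = n → ∃ (V' : Type) (_ : AddCommGroup V') (_ : Module k V')
        (_ : FiniteDimensional k V') (ρ' : H →* End k V'), finrank k V' = n ∧ (∀ q ∈ Q, ρ' q = 1) ∧
        ∀ x c, Reg k x → finrank k ((ρ' x).eigenspace c) = finrank k ((ρ x).eigenspace c) := by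
  induction n using Nat.strong_induction_on with
  | _ n ih =>
  intro V _ _ _ ρ hn
  rcases subsingleton_or_nontrivial V with h0 | h0
  · exact ⟨V, _, _, inferInstance, ρ, hn, fun q _ => LinearMap.ext fun _ => Subsingleton.elim _ _,
      fun _ _ _ => rfl⟩
  let U : Submodule k V := J (fun q : Q => ρ q) fun _ => 1
  have hU : ∀ g, ∀ v ∈ U, ρ g v ∈ U := fun g v hv => mem_J.2 fun q => by
    have := mem_J.1 hv ⟨g⁻¹ * q * g⁻¹⁻¹, hQ.conj_mem _ q.2 _⟩
    rw [one_smul] at this ⊢
    conv_rhs => rw [← this]
    rw [← act_mul, ← act_mul]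
    congr 2
    simp [mul_assoc]
  have h1 : finrank k U ≠ 0 := fun e => by
    obtain ⟨v, hv, h⟩ := H64.MR.exists_fixed ρ p hp
    exact hv ((Submodule.finrank_eq_zero.1 e).le (mem_J.2 fun q => by rw [one_smul]; exact h q q.2))
  let ρ1 : H →* End k U := Representation.subrepresentation ρ U hU
  let ρ2 : H →* End k (V ⧸ U) := Representation.quotient ρ U hU
  have h5 := U.finrank_quotient_add_finrank
  obtain ⟨V', _, _, _, ρ', a1, a2, a3⟩ := ih _ (by omega) (V ⧸ U) ρ2 rfl
  refine ⟨U × V', inferInstance, inferInstance, inferInstance, Representation.prod ρ1 ρ',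
    by rw [finrank_prod]; omega, fun q hq => ?_, fun x c hx => ?_⟩
  · refine LinearMap.ext fun v => Prod.ext (Subtype.ext ?_) ?_
    · exact (mem_J.1 v.1.2 ⟨q, hq⟩).trans (one_smul _ _)
    · exact LinearMap.congr_fun (a2 q hq) v.2
  · obtain ⟨N, h2, h3⟩ := hx.map ρ
    rw [eig_add (ρ x) U (hU x) h2 h3 c]
    exact (eig_prod (ρ1 x) (ρ' x) c).trans (congrArg _ (a3 x c hx))

/-- On a module for `A₄` on which an element of order 3 has no fixed vector the four-group acts
trivially. -/
theorem a4_ring {R : Type*} [Ring R] (h2 : ∀ x : R, x + x = 0 → x = 0) {a u : R}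
    (ha : a * a + a + 1 = 0) (hu : u * u = 1) (h : (a * u) ^ 3 = 1) : u = 1 := by
  have e1 : a * a = -a - 1 := by
    rw [← zero_sub a, ← ha, add_sub_right_comm, add_sub_cancel_right, add_sub_cancel_right]
  have e3 : a * a * a = 1 := by rw [e1, sub_mul, neg_mul, e1]; noncomm_ring
  have h3 : a * u * a * u * a * u = 1 := by rw [← h]; noncomm_ring
  have h4 : a * a * u * (a * a) = u * a * u :=
    calc _ = a * a * (a * u * a * u * a * u) * u * (a * a) := by rw [h3, mul_one]
      _ = (a * a * a) * u * a * u * a * (u * u) * (a * a) := by noncomm_ring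
      _ = 1 * (u * a * u * (a * a * a)) := by rw [hu]; nth_rw 1 [e3]; noncomm_ring
      _ = _ := by rw [e3, mul_one, one_mul]
  have h5 : u * (a * a) * u = a * u * a :=
    calc _ = (a * u * a * u * a * u) * u * (a * a) * u := by rw [h3, one_mul]
      _ = a * u * a * u * a * (u * u) * (a * a) * u := by noncomm_ring
      _ = a * u * a * u * (a * a * a) * u := by rw [hu]; noncomm_ring
      _ = a * u * a * (u * u) := by rw [e3]; noncomm_ring
      _ = _ := by rw [hu, mul_one]
  rw [e1] at h4 h5
  have h6 : u * a * u + u * a * u = a * u + u * a + u - 1 := by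
    have : u * a * u = a * u * a + a * u + u * a + u := by rw [← h4]; noncomm_ring
    nth_rw 1 [this]
    rw [← h5, mul_sub, sub_mul, mul_one, hu]; noncomm_ring
  have h7 : a + a = a * u + u * a + u - 1 :=
    calc _ = (u * u) * a * (u * u) + (u * u) * a * (u * u) := by rw [hu]; noncomm_ring
      _ = u * (u * a * u + u * a * u) * u := by noncomm_ring
      _ = (u * u) * a * u + u * a * (u * u) + u * (u * u) - u * u := by rw [h6]; noncomm_ring
      _ = _ := by rw [hu]; noncomm_ring
  have h8 : u * a * u = a := sub_eq_zero.1 (h2 _ (by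
    rw [show ∀ x y : R, x - y + (x - y) = x + x - (y + y) from fun x y => by abel, h6, h7, sub_self]))
  calc u = a * a * a * u := by rw [e3, one_mul]
    _ = a * (u * a * u) * a * u := by rw [h8]
    _ = 1 := by rw [← h3]; noncomm_ring

end H63.AE
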