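import Cfsg.Agent.Lib.AE6.Lin
import Cfsg.Agent.Lib.AE6.Tri
import Cfsg.Agent.Lib.AE6.Perm

/-! Alternating sections acting on the 27-dimensional module: reduction to central extensions. -/

set_option autoImplicit false
set_option linter.style.haveILetI false
set_option linter.unusedSectionVars false

namespace H63.AE

open Module H82.AG Equiv Equiv.Perm Cfsg.Lie
open scoped commutatorElement

universe u

variable {H : Type u} [Group H] {Ω : Type} [DecidableEq Ω] [Fintype Ω] {π : H →* Perm Ω}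

theorem elem_big [Finite H] (ev : ∀ h, sign (π h) = 1) (surj : ∀ σ, sign σ = 1 → ∃ h, π h = σ)
    (h9 : 9 ≤ Fintype.card Ω) {A : Type u} [CommGroup A] [Finite A] (l : ℕ) [Fact l.Prime]
    (hl : ∀ a : A, a ^ l = 1) (ψ : H →* MulAut A) (hψ : ∀ h, ψ h = 1 → π h = 1) :
    2 ^ (Fintype.card Ω - 2) ≤ Nat.card A := by
  obtain ⟨_⟩ : Nonempty (Module (ZMod l) (Additive A)) :=
    ⟨AddCommGroup.zmodModule fun a => hl a.toMul⟩
  let ρ1 := linOf l ψ
  haveI : Module.Finite (ZMod l) (Additive A) := Module.Finite.of_finite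
  obtain ⟨m, b, hc⟩ : ∃ (m : ℕ) (_ : Basis (Fin m) (ZMod l) (Additive A)), Nat.card A = l ^ m :=
    ⟨_, finBasis (ZMod l) (Additive A), by
      rw [← Nat.card_congr (Additive.toMul (α := A)), natCard_eq_pow_finrank (K := ZMod l),
        Nat.card_zmod]⟩
  let ρ2 : H →* Matrix (Fin m) (Fin m) (ZMod l) :=
    (LinearMap.toMatrixAlgEquiv b).toRingEquiv.toMonoidHom.comp ρ1
  have hf : ∀ h, ρ2 h = 1 → π h = 1 := fun h e => hψ h (by
    have : ρ1 h = 1 := (LinearMap.toMatrixAlgEquiv b).injective (by rw [map_one]; exact e)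
    ext a
    exact LinearMap.congr_fun this (Additive.ofMul a))
  have := bd_mat l (algebraMap (ZMod l) _) (bd m) ev surj h9 ρ2 hf
  rw [hc]
  exact (Nat.pow_le_pow_right (by decide) (by split_ifs at this <;> omega)).trans
    (Nat.pow_le_pow_left (Fact.out : l.Prime).two_le m)

variable {k V : Type} [Field k] [AddCommGroup V] [Module k V] [FiniteDimensional k V]
  {ρ : H →* End k V}

theorem card_le_sq' [Nontrivial V] [Finite H]
    (hs : ∀ z ∈ Subgroup.center H, ∃ c : k, ∀ v, ρ z v = c • v) (E K : Subgroup H)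
    (h1 : ∀ g ∈ K, ∀ e ∈ E, ⁅g, e⁆ ∈ Subgroup.center H)
    (h2 : ∀ e ∈ E, (∀ g ∈ K, ρ ⁅g, e⁆ = 1) → e ∈ Subgroup.center H) :
    Nat.card (E.map (QuotientGroup.mk' (Subgroup.center H))) ≤ finrank k V * finrank k V := by
  choose s hs1 hs2 using fun a : E.map (QuotientGroup.mk' (Subgroup.center H)) => a.2
  choose c hc using fun (a : E.map (QuotientGroup.mk' (Subgroup.center H))) (e : K) =>
    hs _ (h1 _ e.2 _ (hs1 a))
  rw [← finrank_linearMap k k V V]
  refine card_le_of_wt (V := End k V)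
    (fun e : K => LinearMap.mulLeft k (ρ e) ∘ₗ LinearMap.mulRight k (ρ (e : H)⁻¹)) c
    (fun a => ⟨ρ (s a), fun h => ?_, fun e => ?_⟩) fun a b h => ?_
  · obtain ⟨v, hv⟩ := exists_ne (0 : V)
    exact act_ne ρ (s a) hv (by rw [h]; rfl)
  · ext v
    rw [LinearMap.smul_apply, ← hc, ← act_mul, commutatorElement_def, inv_mul_cancel_right,
      mul_assoc, map_mul, map_mul]
    rfl
  · have h4 : (s b)⁻¹ * s a ∈ Subgroup.center H :=
      h2 _ (E.mul_mem (E.inv_mem (hs1 b)) (hs1 a)) fun g hg => by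
        have h3 : ρ ⁅g, s a⁆ = ρ ⁅g, s b⁆ := by
          ext v; rw [hc a ⟨g, hg⟩, hc b ⟨g, hg⟩, h]
        have h5 : ⁅g, (s b)⁻¹ * s a⁆ = ⁅g, s b⁆⁻¹ * ⁅g, s a⁆ := by
          have z := Subgroup.mem_center_iff.1 (mul_mem (inv_mem (h1 g hg _ (hs1 b)))
            (h1 g hg _ (hs1 a))) (s b)
          calc _ = (s b)⁻¹ * (s b * ⁅g, (s b)⁻¹ * s a⁆) := by group
            _ = (s b)⁻¹ * (⁅g, s b⁆⁻¹ * ⁅g, s a⁆ * s b) := by
              simp only [commutatorElement_def]; group
            _ = _ := by rw [← z]; group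
        rw [h5, map_mul, h3, ← map_mul, inv_mul_cancel, map_one]
    exact Subtype.ext (by rw [← hs2, ← hs2]; exact (QuotientGroup.eq.2 h4).symm)

open Classical in
/-- Regular elements are diagonalisable with eigenvalues of the shape of a torus element. -/
def FD (ρ : H →* End k V) (π : H →* Perm Ω) : Prop :=
  ∀ x, Reg k x → ∃ d : I27 → k, Tri d ∧
    (∀ c, finrank k ((ρ x).eigenspace c) = (Finset.univ.filter fun a => d a = c).card) ∧
    ((∀ a, d a = 1) → π x = 1)

theorem FD.fix (hF : FD ρ π) (h27 : finrank k V = 27) {x : H} (hx : Reg k x)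
    (h : 21 ≤ finrank k ((ρ x).eigenspace 1)) : ρ x = 1 ∧ π x = 1 := by
  obtain ⟨d, h1, h2, h3⟩ := hF x hx
  have h4 := h1.eq_one (by rw [h2] at h; convert h)
  refine ⟨LinearMap.ext fun v => ?_, h3 h4⟩
  have : (ρ x).eigenspace 1 = ⊤ := Submodule.eq_top_of_finrank_eq (by rw [h2, h27]; simp [h4])
  exact (End.mem_eigenspace_iff.1 (this.ge (Submodule.mem_top (x := v)))).trans (one_smul _ _)

theorem FD.ker (hF : FD ρ π) (h27 : finrank k V = 27) {x : H} (hx : Reg k x) (h : ρ x = 1) :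
    π x = 1 := (hF.fix h27 hx (by
  have : (ρ x).eigenspace 1 = ⊤ := eq_top_iff.2 fun v _ => End.mem_eigenspace_iff.2 (by simp [h])
  rw [this, finrank_top, h27]; decide)).2

variable [IsAlgClosed k]

theorem abelian_central [Finite H] (ev : ∀ h, sign (π h) = 1)
    (surj : ∀ σ, sign σ = 1 → ∃ h, π h = σ) (h12 : 12 ≤ Fintype.card Ω)
    (hmin : ∀ P : Subgroup H, (∀ σ, sign σ = 1 → ∃ h ∈ P, π h = σ) → P = ⊤)
    (hinj : Function.Injective ρ) (h27 : finrank k V = 27) (hF : FD ρ π) {N : ℕ} (hN : (N : k) ≠ 0)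
    (E : Subgroup H) [hE : E.Normal] (hEN : ∀ e ∈ E, e ^ N = 1) (hEK : E ≤ π.ker)
    (hc : ∀ g, π g = 1 → ∀ e ∈ E, e * g = g * e) : E ≤ Subgroup.center H := by
  classical
  obtain ⟨b, χ, hb⟩ := exists_basis (fun e : E => ρ e)
    (fun a b => Commute.map (hc _ (hEK b.2) _ a.2) ρ) hN
    (fun e => by rw [← map_pow, hEN _ e.2, map_one]) h27
  letI : MulAction H (E → k) :=
    { smul := fun g χ e => χ ⟨g⁻¹ * e * g⁻¹⁻¹, hE.conj_mem _ e.2 _⟩
      one_smul := fun χ => funext fun e => congrArg χ (Subtype.ext (by simp))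
      mul_smul := fun a b χ => funext fun e => congrArg χ (Subtype.ext (by simp [mul_assoc])) }
  have hJ : ∀ (g : H) (χ : E → k), ∀ v ∈ J (fun e : E => ρ e) χ,
      ρ g v ∈ J (fun e : E => ρ e) (g • χ) := fun g χ v hv => mem_J.2 fun e => by
    have := congrArg (ρ g) (mem_J.1 hv ⟨g⁻¹ * e * g⁻¹⁻¹, hE.conj_mem _ e.2 _⟩)
    rw [map_smul] at this
    refine Eq.trans ?_ this
    rw [← act_mul, ← act_mul]
    congr 2
    simp [mul_assoc]
  have hK : ∀ g g' : H, π g = π g' → ∀ χ : E → k, g • χ = g' • χ := fun g g' e χ => by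
    rw [← inv_smul_eq_iff, ← mul_smul]
    funext a
    refine congrArg χ (Subtype.ext ?_)
    have := hc (g'⁻¹ * g) (by rw [map_mul, map_inv, e, inv_mul_cancel]) _ a.2
    change _ * (a : H) * _ = a
    rw [inv_inv, mul_assoc, this, inv_mul_cancel_left]
  obtain ⟨j⟩ : Nonempty (Fin 12 ↪ Ω) := Function.Embedding.nonempty_of_card_le (by simpa using h12)
  choose s hs using fun σ : alternatingGroup (Fin 12) =>
    surj (viaEmbeddingHom j σ) ((sign_via j _).trans σ.2)
  letI : MulAction (alternatingGroup (Fin 12)) (E → k) :=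
    { smul := fun σ χ => s σ • χ
      one_smul := fun χ => (hK _ 1 (by rw [hs]; simp) χ).trans (one_smul _ _)
      mul_smul := fun a b χ => (hK _ (s a * s b) (by simp [hs]) χ).trans (mul_smul _ _ _) }
  have hJ' : ∀ (g : alternatingGroup (Fin 12)) (χ : E → k), ∀ v ∈ J (fun e : E => ρ e) χ,
      ρ (s g) v ∈ J (fun e : E => ρ e) (g • χ) := fun g => hJ (s g)
  have hd : ∀ i i' : Fin 4, i ≠ i' → ∀ t, a12 i • χ t = χ t ∨ a12 i' • χ t = χ t := by
    intro i i' hi t
    refine disj12 (Wt fun e : E => ρ e) ?_ ?_ hi ⟨b t, b.ne_zero t, hb t⟩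
    · rintro g x ⟨v, hv, h⟩
      exact ⟨_, act_ne ρ (s g) hv, mem_J.1 (hJ' g x v (mem_J.2 h))⟩
    · intro f hf h
      have := card_le_of_wt _ f h hf
      rw [h27, Nat.card_fin] at this
      exact absurd this (by decide)
  let M : Fin 4 → Finset (Fin 27) := fun i => Finset.univ.filter fun t => a12 i • χ t ≠ χ t
  have h1 : ∀ i, (M 0).card ≤ (M i).card := fun i => by
    obtain ⟨σ, a1, a2, -⟩ := b12_spec i (i + 1) (by revert i; decide)
    let g : alternatingGroup (Fin 12) := ⟨σ, a1⟩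
    have a3 : g * a12 0 = a12 i * g := Subtype.ext a2
    convert card_le_of_map b hb (ρ (s g)) (Function.LeftInverse.injective (act_inv ρ _))
      (fun ψ => a12 0 • ψ ≠ ψ) (fun ψ => a12 i • ψ ≠ ψ) fun t ht =>
        ⟨g • χ t, fun e => ht ?_, hJ' g _ _ (mem_J.2 (hb t))⟩
    rwa [← mul_smul, ← a3, mul_smul, smul_left_cancel_iff] at e
  have h2 := Finset.card_le_univ (Finset.univ.biUnion M)
  rw [Finset.card_biUnion (t := M) (fun i _ i' _ hi => Finset.disjoint_filter.2 fun t _ a1 a2 =>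
    (hd i i' hi t).elim a1 a2), Fin.sum_univ_four, Fintype.card_fin] at h2
  have h3 := Finset.card_filter_add_card_filter_not (s := Finset.univ) fun t => a12 0 • χ t ≠ χ t
  have h4 : s (a12 0) ∈ Subgroup.centralizer (E : Set H) := fun e he => by
    have a1 : ⁅(s (a12 0))⁻¹, e⁆ ∈ E := by
      rw [commutatorElement_def]
      exact mul_mem (hE.conj_mem _ he _) (inv_mem he)
    have a2 := (hF.fix h27 ⟨N, hN, hEN _ a1⟩ (by
      refine le_trans (?_ : 21 ≤ (Finset.univ.filter fun t => ¬ a12 0 • χ t ≠ χ t).card) ?_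
      · have := h1 1; have := h1 2; have := h1 3
        simp only [Finset.card_univ, Fintype.card_fin] at h3
        change (M 0).card + _ = _ at h3
        omega
      rw [← finrank_span b]
      refine Submodule.finrank_mono (Submodule.span_le.2 ?_)
      rintro _ ⟨t, ht, rfl⟩
      have a3 : a12 0 • χ t = χ t := by simpa using ht
      have a4 := hb t ⟨_, hE.conj_mem _ he (s (a12 0))⁻¹⟩
      rw [show χ t ⟨_, hE.conj_mem _ he (s (a12 0))⁻¹⟩ = χ t ⟨e, he⟩ from congrFun a3 ⟨e, he⟩,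
        ← hb t ⟨e, he⟩] at a4
      rw [SetLike.mem_coe, End.mem_eigenspace_iff, one_smul, commutatorElement_def]
      have a5 : ρ e⁻¹ (b t) = χ t ⟨e⁻¹, inv_mem he⟩ • b t := hb t ⟨e⁻¹, inv_mem he⟩
      rw [act_mul, a5, map_smul, a4, ← map_smul, ← a5, act_inv'])).1
    have a3 := hinj (a2.trans (map_one ρ).symm)
    rw [commutatorElement_eq_one_iff_mul_comm] at a3
    exact (Commute.inv_left_iff.1 a3).eq.symm
  have h5 : Subgroup.centralizer (E : Set H) = ⊤ := by
    by_contra a1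
    have a2 := le_ker ev surj (by omega) hmin _ a1 _ h4
    rw [hs, map_eq_one_iff _ (viaEmbeddingHom_injective j)] at a2
    exact a12_ne a2
  exact fun e he => Subgroup.mem_center_iff.2 fun g => (h5.ge (Subgroup.mem_top g) e he).symm

theorem ker_central' [Finite H] (ev : ∀ h, sign (π h) = 1)
    (surj : ∀ σ, sign σ = 1 → ∃ h, π h = σ) (h12 : 12 ≤ Fintype.card Ω)
    (hmin : ∀ P : Subgroup H, (∀ σ, sign σ = 1 → ∃ h ∈ P, π h = σ) → P = ⊤)
    (hinj : Function.Injective ρ) (h27 : finrank k V = 27) (hF : FD ρ π)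
    (hN : ((Nat.card π.ker : ℕ) : k) ≠ 0) : π.ker ≤ Subgroup.center H := by
  have h9 : 9 ≤ Fintype.card Ω := by omega
  have hKN : ∀ e ∈ π.ker, e ^ Nat.card π.ker = 1 := fun e he =>
    congrArg Subtype.val (pow_card_eq_one' (x := (⟨e, he⟩ : π.ker)))
  by_contra hK
  obtain ⟨E, ⟨hEn, hEK, hEZ⟩, hE⟩ := (wellFounded_lt (α := Subgroup H)).has_min
    {E | E.Normal ∧ E ≤ π.ker ∧ ¬ E ≤ Subgroup.center H} ⟨π.ker, inferInstance, le_rfl, hK⟩
  have hE' : ∀ D : Subgroup H, D.Normal → D ≤ E → D ≤ Subgroup.center H ∨ D = E := fun D h1 h2 => by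
    by_contra hc
    push Not at hc
    exact hE D ⟨h1, h2.trans hEK, hc.1⟩ (lt_of_le_of_ne h2 hc.2)
  have hFr : π.ker ≤ frattini H := le_iInf₂ fun M hM => by
    by_contra hc
    have h1 : M ⊔ π.ker = ⊤ := hM.2 _ (left_lt_sup.2 hc)
    refine hM.1 (hmin M fun σ hσ => ?_)
    obtain ⟨h, rfl⟩ := surj σ hσ
    obtain ⟨a, ha, b, hb, rfl⟩ := Subgroup.mem_sup_of_normal_right.1 (h1.ge (Subgroup.mem_top h))
    exact ⟨a, ha, by rw [map_mul, MonoidHom.mem_ker.1 hb, mul_one]⟩
  have h0 : ⁅E, π.ker⁆ ≤ Subgroup.center H := by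
    refine (hE' _ inferInstance (Subgroup.commutator_le_left E _)).resolve_right fun e => ?_
    obtain ⟨n, hn⟩ := (Subgroup.isNilpotent_iff_lowerCentralSeries (frattini H)).1 frattini_nilpotent
    have : ∀ n, E ≤ (frattini H).lowerCentralSeries n := fun n => by
      induction n with
      | zero => exact hEK.trans hFr
      | succ n ih => exact e.ge.trans (Subgroup.commutator_mono ih hFr)
    exact hEZ ((hn ▸ this n).trans bot_le)
  have h1 : ∀ g ∈ π.ker, ∀ e ∈ E, ⁅g, e⁆ ∈ Subgroup.center H := fun g hg e he =>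
    h0 ((Subgroup.commutator_comm π.ker E).le (Subgroup.commutator_mem_commutator hg he))
  let q := QuotientGroup.mk' (Subgroup.center H)
  have hAn : (E.map q).Normal := hEn.map q (QuotientGroup.mk'_surjective _)
  have hq : ∀ a ∈ E, ∀ b ∈ E, q a * q b = q b * q a := fun a ha b hb => by
    rw [← commutatorElement_eq_one_iff_mul_comm, ← map_commutatorElement]
    exact (QuotientGroup.eq_one_iff _).2 (h1 _ (hEK ha) _ hb)
  letI : CommGroup (E.map q) :=
    { (inferInstance : Group (E.map q)) with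
      mul_comm := by
        rintro ⟨_, a, ha, rfl⟩ ⟨_, b, hb, rfl⟩
        exact Subtype.ext (hq a ha b hb) }
  obtain ⟨l, hl, hld⟩ := Nat.exists_prime_and_dvd (n := Nat.card (E.map q)) fun h => by
    rw [Subgroup.card_eq_one, Subgroup.map_eq_bot_iff, QuotientGroup.ker_mk'] at h
    exact hEZ h
  have := Fact.mk hl
  obtain ⟨⟨_, x, hx, rfl⟩, hxl⟩ := exists_prime_orderOf_dvd_card' l hld
  let D : Subgroup H :=
    { carrier := {e | e ∈ E ∧ q e ^ l = 1}
      one_mem' := ⟨one_mem _, by simp⟩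
      mul_mem' := fun {a b} ha hb => ⟨mul_mem ha.1 hb.1, by
        rw [map_mul, Commute.mul_pow (hq a ha.1 b hb.1), ha.2, hb.2, mul_one]⟩
      inv_mem' := fun {a} ha => ⟨inv_mem ha.1, by rw [map_inv, inv_pow, ha.2, inv_one]⟩ }
  have hD : D = E := by
    refine (hE' D ⟨fun a ha g => ⟨hEn.conj_mem a ha.1 g, by
      rw [map_mul, map_mul, map_inv, conj_pow, ha.2, mul_one, mul_inv_cancel]⟩⟩
      fun a ha => ha.1).resolve_left fun h => ?_
    have h4 : q x = 1 := (QuotientGroup.eq_one_iff _).2 (h ⟨hx, by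
      have := congrArg Subtype.val (pow_orderOf_eq_one (⟨q x, x, hx, rfl⟩ : E.map q))
      rwa [hxl] at this⟩)
    rw [show (⟨q x, x, hx, rfl⟩ : E.map q) = 1 from Subtype.ext h4, orderOf_one] at hxl
    exact hl.one_lt.ne hxl
  have h4 := elem_big ev surj h9 (A := E.map q) l
    (by rintro ⟨_, a, ha, rfl⟩; exact Subtype.ext (hD.ge ha).2) (MulAut.conjNormal.comp q)
    (le_ker ev surj h9 hmin (MulAut.conjNormal.comp q).ker fun h => hEZ fun e he => by
      have h5 := H72.AC.commutator_le_cent (K := ⊤) (y := e) fun g _ => by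
        have := congrArg (fun f : MulAut (E.map q) => (f ⟨q e, e, he, rfl⟩ : H ⧸ Subgroup.center H))
          (MonoidHom.mem_ker.1 (h.ge (Subgroup.mem_top g)))
        refine (QuotientGroup.eq_one_iff _).1 ?_
        change q ⁅g, e⁆ = 1
        rw [map_commutatorElement, commutatorElement_def, mul_inv_eq_one]
        exact this
      rw [← commutator_def, perfect ev surj h9 hmin] at h5
      exact Subgroup.mem_center_iff.2 fun g =>
        Subgroup.mem_centralizer_singleton_iff.1 (h5 (Subgroup.mem_top g)))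
  have h5 : 2 ^ 10 ≤ Nat.card (E.map q) := (Nat.pow_le_pow_right (by decide) (by omega)).trans h4
  have hZK : Subgroup.center H ≤ π.ker := le_ker ev surj h9 hmin _ fun h => by
    obtain ⟨a, b, e⟩ := not_comm surj h9
    exact e (congrArg π (Subgroup.mem_center_iff.1 (h.ge (Subgroup.mem_top b)) a))
  refine hEZ (abelian_central ev surj h12 hmin hinj h27 hF hN E (fun e he => hKN e (hEK he)) hEK
    fun g hg e he => ?_)
  rw [eq_comm, ← commutatorElement_eq_one_iff_mul_comm]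
  refine hinj ?_
  rw [map_one, ← sub_eq_zero]
  refine eq_zero_of_wt (fun z : Subgroup.center H => ρ z)
    (fun a b => Commute.map (Subgroup.mem_center_iff.1 b.2 a) ρ) hN
    (fun z => by rw [← map_pow, hKN _ (hZK z.2), map_one]) _ fun lam v hv => ?_
  by_cases hv0 : v = 0
  · simp [hv0]
  let W := J (fun z : Subgroup.center H => ρ z) lam
  have hW : ∀ g, ∀ w ∈ W, ρ g w ∈ W := fun g w hw => mem_J.2 fun z => by
    rw [← act_mul, ← Subgroup.mem_center_iff.1 z.2 g, act_mul, mem_J.1 hw z, map_smul]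
  let σ : H →* End k W := Representation.subrepresentation ρ W hW
  have : Nontrivial W := ⟨⟨v, mem_J.2 hv⟩, 0, fun e => hv0 (congrArg Subtype.val e)⟩
  have hcm : ∀ g ∈ π.ker, ∀ a ∈ E, ∀ b ∈ E, ⁅g, a * b⁆ = ⁅g, a⁆ * ⁅g, b⁆ := fun g hg a _ b hb =>
    calc _ = ⁅g, a⁆ * (a * ⁅g, b⁆) * a⁻¹ := by simp only [commutatorElement_def]; group
      _ = _ := by rw [Subgroup.mem_center_iff.1 (h1 g hg b hb) a]; group
  let D' : Subgroup H :=
    { carrier := {e | e ∈ E ∧ ∀ g ∈ π.ker, σ ⁅g, e⁆ = 1}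
      one_mem' := ⟨one_mem _, by simp⟩
      mul_mem' := fun {a b} ha hb => ⟨mul_mem ha.1 hb.1, fun g hg => by
        rw [hcm g hg a ha.1 b hb.1, map_mul, ha.2 g hg, hb.2 g hg, mul_one]⟩
      inv_mem' := fun {a} ha => ⟨inv_mem ha.1, fun g hg => by
        have := congrArg σ (hcm g hg a ha.1 a⁻¹ (inv_mem ha.1))
        rwa [map_mul, ha.2 g hg, one_mul, mul_inv_cancel, commutatorElement_one_right, map_one,
          eq_comm] at this⟩ }
  rcases hE' D' ⟨fun a ha x => ⟨hEn.conj_mem a ha.1 x, fun g hg => by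
    have : ⁅g, x * a * x⁻¹⁆ = x * ⁅x⁻¹ * g * x⁻¹⁻¹, a⁆ * x⁻¹ := by
      simp only [commutatorElement_def]; group
    rw [this, map_mul, map_mul, ha.2 _ (π.normal_ker.conj_mem g hg _), mul_one, ← map_mul,
      mul_inv_cancel, map_one]⟩⟩ fun a ha => ha.1 with h6 | h6
  · have h7 := card_le_sq' (ρ := σ) (fun z hz => ⟨lam ⟨z, hz⟩, fun w =>
      Subtype.ext (mem_J.1 w.2 ⟨z, hz⟩)⟩) E π.ker h1 fun e he h => h6 ⟨he, h⟩
    have h8 : finrank k W ≤ 27 := h27 ▸ Submodule.finrank_le W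
    have h10 := Nat.mul_le_mul h8 h8
    exact absurd (h5.trans (h7.trans h10)) (by decide)
  · exact sub_eq_zero.2
      (congrArg Subtype.val (LinearMap.congr_fun ((h6.ge he).2 g hg) ⟨v, mem_J.2 hv⟩))

/-- The central case is impossible. -/
def CenFalse (k Ω : Type) [Field k] [DecidableEq Ω] [Fintype Ω] : Prop :=
  ∀ (H : Type u) [Group H] (V : Type) [AddCommGroup V] [Module k V] [FiniteDimensional k V]
    (ρ : H →* End k V) (π : H →* Perm Ω), finrank k V = 27 → FD ρ π → Cx π → Ker π → False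

theorem red (p : ℕ) [Fact p.Prime] [CharP k p] (h12 : 12 ≤ Fintype.card Ω) (hC : CenFalse.{u} k Ω)
    (n : ℕ) : ∀ (H : Type u) [Group H] [Finite H] (V : Type) [AddCommGroup V] [Module k V]
      [FiniteDimensional k V] (ρ : H →* End k V) (π : H →* Perm Ω), Nat.card H = n →
      finrank k V = 27 → FD ρ π → (∀ h, sign (π h) = 1) → (∀ σ, sign σ = 1 → ∃ h, π h = σ) →
      False := by
  induction n using Nat.strong_induction_on with
  | _ n ih =>
  intro H _ _ V _ _ _ ρ π hn h27 hF ev surj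
  subst hn
  have h9 : 9 ≤ Fintype.card Ω := by omega
  by_cases hmin : ∀ P : Subgroup H, (∀ σ, sign σ = 1 → ∃ h ∈ P, π h = σ) → P = ⊤
  swap
  · push Not at hmin
    obtain ⟨P, h1, h2⟩ := hmin
    refine ih _ ?_ P V (ρ.comp P.subtype) (π.comp P.subtype) rfl h27
      (fun x hx => hF x (hx.map P.subtype)) (fun h => ev h)
      (fun σ hσ => let ⟨h, hh, e⟩ := h1 σ hσ; ⟨⟨h, hh⟩, e⟩)
    exact lt_of_le_of_ne (Subgroup.card_le_card_group P) fun e => h2 (Subgroup.eq_top_of_card_eq P e)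
  obtain ⟨S⟩ : Nonempty (Sylow p π.ker) := inferInstance
  have hS : ((S : Subgroup π.ker).map π.ker.subtype).Normal := by
    rw [← Subgroup.normalizer_eq_top_iff]
    refine hmin _ fun σ hσ => ?_
    obtain ⟨h, rfl⟩ := surj σ hσ
    obtain ⟨a, ha, b, hb, rfl⟩ := Subgroup.mem_sup_of_normal_right.1
      (S.normalizer_sup_eq_top.ge (Subgroup.mem_top h))
    exact ⟨a, ha, by rw [map_mul, MonoidHom.mem_ker.1 hb, mul_one]⟩
  obtain ⟨V', _, _, _, ρ', h27', h1, h2⟩ := exists_ss p _ (S.isPGroup'.map π.ker.subtype) _ V ρ h27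
  have hF' : FD ρ' π := fun x hx =>
    let ⟨d, a1, a2, a3⟩ := hF x hx; ⟨d, a1, fun c => (h2 x c hx).trans (a2 c), a3⟩
  have hf : ∀ h ∈ ρ'.ker, π h = 1 := le_ker ev surj h9 hmin _ fun e => by
    have : ∀ (r : ℕ) (σ : Perm Ω), (r : k) ≠ 0 → sign σ = 1 → σ ^ r = 1 → σ = 1 :=
      fun r σ a1 a2 a3 => by
        obtain ⟨y, rfl⟩ := surj σ a2
        obtain ⟨x, a4, a5⟩ := Reg.lift (k := k) p π y ⟨r, a1, a3⟩
        rw [← a5]
        exact hF'.ker h27' a4 (e.ge (Subgroup.mem_top x))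
    obtain ⟨j⟩ : Nonempty (Fin 12 ↪ Ω) := Function.Embedding.nonempty_of_card_le (by simpa using h12)
    have key : ∀ (r : ℕ) (σ : Perm (Fin 12)), (r : k) ≠ 0 → sign σ = 1 → σ ^ r = 1 → σ = 1 :=
      fun r σ a1 a2 a3 => viaEmbeddingHom_injective j ((this r _ a1 ((sign_via j σ).trans a2)
        (by rw [← map_pow, a3, map_one])).trans (map_one _).symm)
    by_cases h3 : ((3 : ℕ) : k) = 0
    · refine absurd (key 2 (swap 0 1 * swap 2 3) (fun h => ?_) (by
        rw [map_mul, sign_swap (by decide), sign_swap (by decide)]; rfl) (by decide)) (by decide)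
      have : ((3 : ℕ) : k) - (2 : ℕ) = 1 := by norm_num
      rw [h, h3, sub_zero] at this
      exact zero_ne_one this
    · exact absurd (key 3 (c12 0) h3 (c12_sign 0) (c12_pow 0)) a12_ne
  by_cases hinj : ρ'.ker = ⊥
  swap
  · refine ih _ ?_ (H ⧸ ρ'.ker) V' (QuotientGroup.lift _ ρ' fun _ h => h)
      (QuotientGroup.lift _ π hf) rfl h27' (fun x hx => ?_) (fun h => ?_) (fun σ hσ => ?_)
    · have h1 := Subgroup.card_eq_card_quotient_mul_card_subgroup ρ'.ker
      have h2 := (Subgroup.one_lt_card_iff_ne_bot _).2 hinj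
      have h3 : 0 < Nat.card (H ⧸ ρ'.ker) := Nat.card_pos
      nlinarith
    · obtain ⟨y, rfl⟩ := QuotientGroup.mk_surjective x
      obtain ⟨x, a1, a2⟩ := Reg.lift (k := k) p (QuotientGroup.mk' ρ'.ker) y hx
      rw [← show (x : H ⧸ ρ'.ker) = y from a2]
      exact hF' x a1
    · obtain ⟨h, rfl⟩ := QuotientGroup.mk_surjective h
      exact ev h
    · obtain ⟨h, e⟩ := surj σ hσ
      exact ⟨h, e⟩
  have hinj' : Function.Injective ρ' := fun a b e => by
    rw [← inv_mul_eq_one, ← Subgroup.mem_bot, ← hinj, MonoidHom.mem_ker, map_mul, ← e, ← map_mul,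
      inv_mul_cancel, map_one]
  have h3 : (S : Subgroup π.ker) = ⊥ := by
    rw [← Subgroup.map_eq_bot_iff_of_injective _ π.ker.subtype_injective, eq_bot_iff, ← hinj]
    exact h1
  have h := ker_central' ev surj h12 hmin hinj' h27' hF' fun h => by
    have := S.not_dvd_index
    rw [h3, Subgroup.index_bot] at this
    exact this ((CharP.cast_eq_zero_iff k p _).1 h)
  have h4 := ker_two ev surj h9 (perfect ev surj h9 hmin) h
  have hx : Cx π := ⟨ev, surj, fun z hz g => (Subgroup.mem_center_iff.1 (h hz) g).symm,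
    fun z hz => by
      by_cases h3 : z = 1
      · simp [h3]
      · rw [mul_eq_one_iff_eq_inv]
        exact h4 _ _ hz (by rw [map_inv, hz, inv_one]) h3 (inv_ne_one.2 h3)⟩
  exact hC H V' ρ' π h27' hF' hx fun x y u v α β hn ha hb oa ob z hz =>
    hx.ker_mem (by omega) hmin h4 (by grind) (by grind) (by grind) (by grind) (by grind) (by grind)
      ha hb oa ob hz

theorem eqns_red : (∀ (ρ : Perm Unit →* End ℚ ℚ) (π : Perm Unit →* Perm Unit), FD ρ π = FD ρ π) ∧
    CenFalse.{0} ℚ Unit = CenFalse.{0} ℚ Unit :=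
  ⟨fun ρ π => (FD.eq_1 ρ π).trans (FD.eq_1 ρ π).symm,
    (CenFalse.eq_1 ℚ Unit).trans (CenFalse.eq_1 ℚ Unit).symm⟩

end H63.AE
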