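import Cfsg.Agent.Lib.AE6.Cen
import Cfsg.Agent.Lib.E6Cub.Root
import Cfsg.Agent.Lib.Chev.SteinCenter
import Cfsg.Agent.Lib.Lang.Conj
import Cfsg.Agent.Lib.AltSec.Sec

/-! Alternating sections of the groups of type `E₆`. -/

set_option autoImplicit false
set_option linter.style.haveILetI false
set_option maxRecDepth 100000

namespace H63.AE

open Module H82.AG Equiv Equiv.Perm Cfsg Cfsg.Lie H38 H30.E6 Matrix

universe u

/-- The pairing of a weight with a coroot. -/
def ex (r s : ℕ) (a : I27) : ℤ := H30.E6.sg r (enc a) ^ 2 - H30.E6.sg s (enc a) ^ 2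

theorem chk_ex : H54.allLt (fun r => H54.force (chevE6.neg r) fun s =>
    decide (∀ a j, ex r s a + ex r s (tr a j).1 + ex r s (tr a j).2 = 0) &&
    decide (∃ b : Fin 27, H30.E6.sg r b = 1 ∨ H30.E6.sg r b = -1) &&
    decide (∀ b : Fin 27, (H30.E6.sg r b = 0 ∨ H30.E6.sg s b = 0 ∧ H30.E6.sg r b ^ 2 = 1 ∧
        H30.E6.sg r b * H30.E6.sg s (sr r b) = 1 ∧ sr s (sr r b) = b))) 72 = true := by
  decide +kernel

theorem ex_spec {r : ℕ} (hr : r < 72) : (∀ a j, ex r (chevE6.neg r) a +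
    ex r (chevE6.neg r) (tr a j).1 + ex r (chevE6.neg r) (tr a j).2 = 0) ∧
    (∃ b < 27, H30.E6.sg r b = 1 ∨ H30.E6.sg r b = -1) ∧ ∀ b < 27, (H30.E6.sg r b = 0 ∨
      H30.E6.sg (chevE6.neg r) b = 0 ∧ H30.E6.sg r b ^ 2 = 1 ∧
        H30.E6.sg r b * H30.E6.sg (chevE6.neg r) (sr r b) = 1 ∧ sr (chevE6.neg r) (sr r b) = b) := by
  have := (H54.allLt_iff _ _).1 chk_ex r hr
  rw [H54.force_eq, Bool.and_eq_true, Bool.and_eq_true] at this
  exact ⟨of_decide_eq_true this.1.1, let ⟨b, h⟩ := of_decide_eq_true this.1.2; ⟨b, b.2, h⟩,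
    fun b hb => of_decide_eq_true this.2 ⟨b, hb⟩⟩

variable {k : Type} [Field k]

theorem Em_neg_mulVec {r : ℕ} (hr : r < 72) (v : I27 → k) {n : ℕ} (hn : n < 27) :
    ((Em k r * Em k (chevE6.neg r)) *ᵥ v) (dec n) = (H30.E6.sg r n ^ 2 : ℤ) * v (dec n) := by
  rw [mul_mulVec hr v hn]
  rcases (ex_spec hr).2.2 n hn with h | ⟨-, h1, h2, h3⟩
  · simp [h]
  · rw [h1, h2, h3]

theorem h_diag (R : RootSys chevE6) (r : Fin chevE6.nroots) {c : k} (hc : c ≠ 0) :
    ((((stRel k).toPre R).h r c : GL I27 k) : Matrix I27 I27 k) =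
      diagonal fun a => c ^ ex r (chevE6.neg r) a := by
  have hr : (r : ℕ) < 72 := r.2
  have h2 := Em_sl2 (F := k) (neg_lt hr)
  rw [neg_neg' hr] at h2
  have key : ((((stRel k).toPre R).h r c : GL I27 k) : Matrix I27 I27 k) =
      1 - Em k r * Em k (chevE6.neg r) - Em k (chevE6.neg r) * Em k r +
        c • (Em k r * Em k (chevE6.neg r)) + c⁻¹ • (Em k (chevE6.neg r) * Em k r) := by
    rw [H38.StRel.toPre_h, ← h_eq (Em_sq hr) (Em_sq (neg_lt hr)) (Em_sl2 hr) h2 hc]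
    simp only [ChevalleyDatum.hWord, ChevalleyDatum.nWord, List.cons_append, List.nil_append,
      List.map_cons, List.map_nil, List.prod_cons, List.prod_nil, mul_one, Units.val_mul, stRel,
      coe_xu hr, coe_xu (neg_lt hr), mul_assoc]
  rw [key]
  refine mat_ext fun v n hn => ?_
  have h3 := Em_neg_mulVec (neg_lt hr) v hn
  rw [neg_neg' hr] at h3
  simp only [add_mulVec, sub_mulVec, smul_mulVec, one_mulVec, Pi.add_apply, Pi.sub_apply,
    Pi.smul_apply, smul_eq_mul, Em_neg_mulVec hr v hn, h3, mulVec_diagonal, ex, enc_dec n hn]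
  have h4 := (ex_spec (neg_lt hr)).2.2 n hn
  rcases (ex_spec hr).2.2 n hn with h | ⟨h, h1, -⟩
  · rcases h4 with h4 | ⟨-, h4, -⟩
    · simp [h, h4]
    · simp [h, h4]
  · simp [h, h1]

theorem H_diag (R : RootSys chevE6) {g : GL I27 k} (hg : g ∈ ((stRel k).toPre R).H) :
    ∃ d, Tri d ∧ (g : Matrix I27 I27 k) = diagonal d := by
  induction hg using Subgroup.closure_induction with
  | mem g hg =>
    obtain ⟨r, c, hc, rfl⟩ := hg
    exact ⟨_, fun a j => by rw [← zpow_add₀ hc, ← zpow_add₀ hc, (ex_spec r.2).1, zpow_zero],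
      h_diag R r hc⟩
  | one => exact ⟨1, fun _ _ => by simp, by simp⟩
  | mul a b _ _ ha hb =>
    obtain ⟨d, h1, h2⟩ := ha
    obtain ⟨d', h3, h4⟩ := hb
    exact ⟨d * d', fun a j => by
      simp only [Pi.mul_apply]
      linear_combination (d' a * d' (tr a j).1 * d' (tr a j).2) * h1 a j + h3 a j,
      by rw [Units.val_mul, h2, h4, diagonal_mul_diagonal]; rfl⟩
  | inv a _ ha =>
    obtain ⟨d, h1, h2⟩ := ha
    have h3 : ∀ a, d a ≠ 0 := fun a e => by simpa [e] using h1 a 0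
    refine ⟨d⁻¹, fun a j => by simp only [Pi.inv_apply, ← mul_inv, h1 a j, inv_one], ?_⟩
    refine Units.inv_eq_of_mul_eq_one_right ?_
    rw [h2, diagonal_mul_diagonal, ← diagonal_one]
    congr 1
    funext a
    exact mul_inv_cancel₀ (h3 a)

theorem xu_inj {r : ℕ} (hr : r < 72) {c : k} (h : xu k r c = xu k r 1) : c = 1 := by
  obtain ⟨b, hb, h1⟩ := (ex_spec hr).2.1
  have h2 := xu_mulVec hr c (fun _ => 1) hb
  rw [h, xu_mulVec hr 1 _ hb] at h2
  rcases h1 with h1 | h1 <;> rw [h1] at h2 <;> push_cast at h2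
  · linear_combination -h2
  · linear_combination h2

theorem not_altSec {F : Type u} [Field F] [Finite F] (p : ℕ) [Fact p.Prime] [CharP F p] {m : ℕ}
    (hm : 12 ≤ m) (hC : CenFalse.{u} (AlgebraicClosure (ZMod p)) (Fin m)) :
    ¬ H5.AltSec (chevE6.group F) m := by
  classical
  rintro ⟨Y, φ, hφ⟩
  let k := AlgebraicClosure (ZMod p)
  letI := ZMod.algebra F p
  let f : F →ₐ[ZMod p] k := IsAlgClosed.lift
  have hD : chevE6 ∈ H37.Tabs := by simp
  obtain ⟨R⟩ := nonempty_rootSys hD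
  have hE := H37.isMat hD R k
  let ρ0 := (stRel k).lift R (stRel_R3 R)
  have hρ0 : PreElts.IsHom (hE.st hD).toPreElts ((stRel k).toPre R) ρ0 := fun r t =>
    (stRel k).lift_stGen R _ r.2 t
  let ι : Y →* chevE6.group k := (H37.fm hD f.toRingHom).comp Y.subtype
  have hι : Function.Injective ι := (H37.fm_injective hD _).comp Y.subtype_injective
  let H : Subgroup (Y × chevE6.SteinbergGroup k) :=
    (ι.comp (MonoidHom.fst _ _)).eqLocus (hE.θ.comp (MonoidHom.snd _ _))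
  have hz : Finite hE.θ.ker := by
    rw [hE.θ_ker hD]
    obtain ⟨e⟩ := hE.nonempty_center_st_equiv hD (tor_st_injective_E6 hE) smithE6
    have : Finite (powMonoidHom 3 : kˣ →* kˣ).ker := inferInstanceAs (Finite (rootsOfUnity 3 k))
    exact Finite.of_equiv _ e.symm.toEquiv
  have : Finite H := by
    choose s hs using hE.θ_surjective
    refine Finite.of_injective (β := Y × hE.θ.ker) (fun x => (x.1.1, ⟨(s (ι x.1.1))⁻¹ * x.1.2, by
      rw [MonoidHom.mem_ker, map_mul, map_inv, hs, inv_mul_eq_one]; exact x.2⟩)) fun a b e => ?_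
    have e1 : a.1.1 = b.1.1 := congrArg (fun x : Y × hE.θ.ker => x.1) e
    have e2 := congrArg (fun x : Y × hE.θ.ker => x.2.1) e
    simp only [e1, mul_right_inj] at e2
    exact Subtype.ext (Prod.ext e1 e2)
  let L : GL I27 k →* End k (I27 → k) :=
    (Matrix.toLinAlgEquiv' (R := k) (n := I27)).toRingEquiv.toMonoidHom.comp (Units.coeHom _)
  have hL : ∀ g v, L g v = (g : Matrix I27 I27 k) *ᵥ v := fun g v => rfl
  let σ : H →* chevE6.SteinbergGroup k := (MonoidHom.snd _ _).comp H.subtype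
  refine red (k := k) p (by simpa using hm) hC _ H (I27 → k) ((L.comp ρ0).comp σ)
    (φ.comp ((MonoidHom.fst _ _).comp H.subtype)) rfl (by simp) (fun x hx => ?_)
    (fun h => mem_alternatingGroup.1 (hφ.le ⟨_, rfl⟩)) fun τ hτ => ?_
  swap
  · obtain ⟨y, rfl⟩ := hφ.ge (mem_alternatingGroup.2 hτ)
    obtain ⟨s, hs⟩ := hE.θ_surjective (ι y)
    exact ⟨⟨(y, s), hs.symm⟩, rfl⟩
  obtain ⟨N, h1, h2⟩ := (hx.map σ).map hE.θ
  obtain ⟨g, -, h3, -⟩ := H37.exists_conj_H (hD := hD) (R := R) (p := p)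
    (H37.locFin_of_algebraic (ZMod p) k) H37.isSub_univ (s := hE.θ (σ x)) (u := 1)
    (by rw [H37.EG_BS_univ]; trivial) (one_mem _) (Commute.one_right _)
    (((Fact.out : p.Prime).coprime_iff_not_dvd.2 fun h => h1
      ((CharP.cast_eq_zero_iff k p N).2 h)).coprime_dvd_right (orderOf_dvd_of_pow_eq_one h2))
    (by simp)
  obtain ⟨g, rfl⟩ := hE.θ_surjective g
  have h4 : g⁻¹ * σ x * g ∈ (hE.st hD).H := by
    obtain ⟨t, ht, e⟩ : hE.θ (g⁻¹ * σ x * g) ∈ (hE.st hD).H.map hE.θ := by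
      rw [PreElts.IsHom.map_H (E := (hE.st hD).toPreElts) hE.θ_isHom]
      rw [map_mul, map_mul, map_inv]
      exact h3
    have := Elts.ker_le_H (E := hE.st hD) hE.θ_isHom hE.grp_faith (hE.st_top hD)
      (x := t⁻¹ * (g⁻¹ * σ x * g)) (by rw [MonoidHom.mem_ker, map_mul, map_inv, e, inv_mul_cancel])
    simpa using mul_mem ht this
  obtain ⟨d, h5, h6⟩ := H_diag R (hρ0.map_H ▸ Subgroup.mem_map_of_mem ρ0 h4)
  refine ⟨d, h5, fun c => ?_, fun hd => ?_⟩
  · let ρ1 := L.comp ρ0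
    refine finrank_eig ((Pi.basisFun k I27).map (LinearEquiv.ofLinearMap (ρ1 g) (ρ1 g⁻¹)
      (LinearMap.ext (act_inv' ρ1 g)) (LinearMap.ext (act_inv ρ1 g)))) (fun a => ?_) c
    change ρ1 (σ x) (ρ1 g (Pi.basisFun k I27 a)) = d a • ρ1 g (Pi.basisFun k I27 a)
    rw [← map_smul, ← act_mul, show σ x * g = g * (g⁻¹ * σ x * g) by group, act_mul]
    congr 1
    change L _ _ = _
    rw [hL, h6, Pi.basisFun_apply, diagonal_mulVec_single, mul_one, ← Pi.single_smul', smul_eq_mul,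
      mul_one]
  · have h7 : ρ0 (g⁻¹ * σ x * g) = 1 := Units.ext (by
      rw [h6, show d = fun _ => 1 from funext hd]; simp)
    have h8 : g⁻¹ * σ x * g ∈ Subgroup.center _ := by
      generalize g⁻¹ * σ x * g = t at h4 h7
      rw [Subgroup.mem_center_iff]
      intro a
      have ha : a ∈ (hE.st hD).Gp := hE.st_top hD ▸ Subgroup.mem_top a
      refine (hE.st hD).XS_induction (P := fun a => a * t = t * a) ha (fun r _ u => ?_) (by simp) ?_
      · obtain ⟨c, -, a2⟩ := ((hE.st hD).rep_of_mem_H h4).conj_x r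
        have a3 := congrArg ρ0 (a2 1)
        rw [map_mul, map_mul, map_inv, h7, hρ0, hρ0, one_mul, inv_one, mul_one, mul_one] at a3
        have a4 := a2 u
        rw [xu_inj r.2 a3.symm, one_mul] at a4
        exact (mul_inv_eq_iff_eq_mul.mp a4).symm
      · intro a b _ _ h1 h2
        rw [mul_assoc, h2, ← mul_assoc, h1, mul_assoc]
    rw [← hE.θ_ker hD] at h8
    have h9 := hE.θ.normal_ker.conj_mem _ h8 g
    rw [show g * (g⁻¹ * σ x * g) * g⁻¹ = σ x by group, MonoidHom.mem_ker] at h9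
    have h10 : ι x.1.1 = hE.θ (σ x) := x.2
    rw [h9, map_eq_one_iff ι hι] at h10
    change φ x.1.1 = 1
    rw [h10, map_one]

theorem altSec_E6 {F : Type u} [Field F] [Finite F] (p : ℕ) [Fact p.Prime] [CharP F p] {r : ℕ}
    (h : H5.AltSec (chevE6.group F) r) : r ≤ 11 + (if p = 2 ∨ p = 3 ∨ p = 5 then 1 else 0) := by
  have key : ∀ q : ℕ, q.Prime → p ≠ q → ((q : ℕ) : AlgebraicClosure (ZMod p)) ≠ 0 :=
    fun q h1 h2 h3 => h2 ((Nat.prime_dvd_prime_iff_eq Fact.out h1).1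
      ((CharP.cast_eq_zero_iff _ p q).1 h3))
  by_contra hr
  split_ifs at hr with hp
  · exact not_altSec p (m := 13) (by decide) (central13 (key 11 (by decide) (by omega)))
      (h.mono (by omega))
  · exact not_altSec p (m := 12) (by decide) (central12
      (by simpa using key 2 (by decide) (by omega)) (by simpa using key 3 (by decide) (by omega)))
      (h.mono (by omega))

theorem eqns_ex (r s : ℕ) (a : I27) :
    ex r s a = H30.E6.sg r (enc a) ^ 2 - H30.E6.sg s (enc a) ^ 2 := ex.eq_1 r s a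

end H63.AE
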